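import Cfsg.Agent.SG.Ex1

/-! Invariant relations and a large abelian trivial-intersection subgroup. -/

set_option autoImplicit false

namespace Cfsg.Agent.SG.Ex

open Cfsg.Agent.H4.CABasic Cfsg.Agent.H4.Irr Cfsg.Agent.H4.CAChar Cfsg.Agent.H4.AbChar

/-- The hypotheses. -/
structure Hy {G : Type*} [Group G] (A : Subgroup G) (Ω : Type*) [MulAction G Ω] (w j f : ℕ) :
    Prop where
  ca : H4.CABasic.IsCA A
  hw : A.relIndex (Subgroup.normalizer (A : Set G)) = w
  free : ∀ a ∈ A, a ≠ 1 → ∀ ω : Ω, a • ω ≠ ω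
  card : Nat.card Ω = j * Nat.card A
  fix : ∀ g : G, g ≠ 1 → Nat.card (MulAction.fixedBy Ω g) ≤ f
  big : (w + 2 * j + 4) * w + 1 ≤ Nat.card A
  big' : j + f + 1 < Nat.card A
  nn : ¬ A.Normal

/-- The number of points related to their image. -/
noncomputable def cnt {G Ω : Type*} [Group G] [MulAction G Ω] (Γ : Ω → Ω → Prop) (x : G) : ℕ :=
  Nat.card {ω // Γ ω (x • ω)}

variable {G Ω : Type*} [Group G] [MulAction G Ω] {A : Subgroup G} {w j f : ℕ}
  {Γ : Ω → Ω → Prop}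

theorem cnt_conj (hΓ : ∀ (g : G) a b, Γ a b → Γ (g • a) (g • b)) (g x : G) :
    cnt Γ (x * g * x⁻¹) = cnt Γ g := by
  refine (Nat.card_congr ((MulAction.toPerm x).subtypeEquiv fun ω => ?_)).symm
  simp only [MulAction.toPerm_apply, mul_smul, inv_smul_smul]
  exact ⟨hΓ x _ _, fun h => by simpa using hΓ x⁻¹ _ _ h⟩

open Classical in
theorem cnt_eq [Fintype Ω] {R : Type*} [Semiring R] (g : G) :
    (cnt Γ g : R) = ∑ ω, ∑ ω', if Γ ω ω' then (if g • ω = ω' then 1 else 0) else 0 := by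
  rw [cnt, Nat.card_eq_fintype_card, Fintype.card_subtype, ← Finset.sum_boole]
  refine Finset.sum_congr rfl fun ω _ => ?_
  rw [Finset.sum_eq_single (g • ω)]
  · simp
  · intro b _ hb
    simp [hb.symm]
  · simp

variable {N : ℕ} {d : Fin N → ℕ} {ρ : ∀ i, Representation ℂ G (Fin (d i) → ℂ)}

theorem Hy.const [Fintype G] [Fintype Ω] (h : Hy A Ω w j f) (hρ : IsIrrSys ρ) {i : Fin N}
    (hi : ip (permRep ℂ G Ω).character (ρ i).character ≠ 0) {lam : A →* ℂˣ} (hl : lam ≠ 1) :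
    ∀ μ : A →* ℂˣ, μ ≠ 1 → mult ρ μ i = mult ρ lam i := fun _ hμ =>
  ne_of hρ h.ca h.hw h.free (by rw [← h.card, Nat.card_eq_fintype_card]) h.fix h.big h.big' h.nn
    hi hμ hl

theorem exists_lam [Finite G] (hA : IsCA A) : ∃ lam : A →* ℂˣ, lam ≠ 1 := by
  obtain ⟨k, hk⟩ := Subgroup.ne_bot_iff_exists_ne_one.1 hA.ne_bot
  obtain ⟨ν, hν⟩ := exists_char_ne_one hA.comm' hk
  exact ⟨ν, fun e => hν (by rw [e]; rfl)⟩

theorem E1 [Finite G] [Finite Ω] (h : Hy A Ω w j f)
    (hΓ : ∀ (g : G) a b, Γ a b → Γ (g • a) (g • b)) {x y : G} (hx : x ∈ A) (x1 : x ≠ 1)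
    (hy : y ∈ A) (y1 : y ≠ 1) : cnt Γ x = cnt Γ y := by
  classical
  have := Fintype.ofFinite G
  have := Fintype.ofFinite Ω
  obtain ⟨N, d, ρ, hρ⟩ := exists_irrSys G
  obtain ⟨lam, hl⟩ := exists_lam h.ca
  have h1 := hρ.expand (fun g => (cnt Γ g : ℂ)) fun g x => by rw [cnt_conj hΓ]
  have : (cnt Γ x : ℂ) = cnt Γ y := by
    rw [← h1 x, ← h1 y]
    refine Finset.sum_congr rfl fun i _ => ?_
    by_cases hi : ip (permRep ℂ G Ω).character (ρ i).character = 0
    · have h2 : ip (fun g => (cnt Γ g : ℂ)) (ρ i).character = 0 := by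
        have h3 : ∀ ω ω' : Ω, ∑ g : G, (if g • ω = ω' then 1 else 0) * (ρ i).character g⁻¹ = 0 := by
          intro ω ω'
          have := congrFun (sum_eq_zero _ hi (Pi.single ω 1)) ω'
          rw [Finset.sum_apply] at this
          refine Eq.trans (Finset.sum_congr rfl fun g _ => ?_) this
          rw [Pi.smul_apply, smul_eq_mul, mul_comm]
          congr 1
          change _ = (Pi.single ω 1 : Ω → ℂ) (g⁻¹ • ω')
          simp only [Pi.single_apply, inv_smul_eq_iff]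
          exact if_congr eq_comm rfl rfl
        rw [ip, mul_eq_zero]
        right
        simp only [cnt_eq, Finset.sum_mul]
        rw [Finset.sum_comm]
        refine Finset.sum_eq_zero fun ω _ => ?_
        rw [Finset.sum_comm]
        refine Finset.sum_eq_zero fun ω' _ => ?_
        by_cases e : Γ ω ω'
        · simp only [if_pos e, h3]
        · simp only [if_neg e, zero_mul, Finset.sum_const_zero]
      rw [h2, zero_mul, zero_mul]
    · rw [char_const h.ca (h.const hρ hi hl) (mem_conjs.2 ⟨1, x, hx, x1, by simp⟩),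
        char_const h.ca (h.const hρ hi hl) (mem_conjs.2 ⟨1, y, hy, y1, by simp⟩)]
  exact_mod_cast this

theorem conv [Fintype G] (hρ : IsIrrSys ρ) (i : Fin N) (x y : G) :
    ∑ g : G, (ρ i).character (y * (g * x * g⁻¹)) =
      Nat.card G * ((ρ i).character y * (ρ i).character x / d i) := by
  obtain ⟨s, hs⟩ := H5.CharTools.schur hρ i (∑ g : G, ρ i (g * x * g⁻¹)) fun z => by
    rw [Finset.sum_mul, Finset.mul_sum]
    exact (Fintype.sum_equiv (Equiv.mulLeft z) _ _ fun g => by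
      simp only [Equiv.coe_mulLeft, ← map_mul]
      congr 1
      group).symm
  have h1 : ∀ y, ∑ g : G, (ρ i).character (y * (g * x * g⁻¹)) = s * (ρ i).character y := fun y => by
    have := congrArg (fun T => LinearMap.trace ℂ _ (ρ i y * T)) hs
    simp only [Finset.mul_sum, map_sum, ← map_mul, mul_smul_comm, mul_one, map_smul,
      smul_eq_mul] at this
    exact this
  have h2 := h1 1
  simp only [one_mul, Representation.char_conj, Finset.sum_const, Finset.card_univ, nsmul_eq_mul,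
    hρ.char_one, ← Nat.card_eq_fintype_card] at h2
  have h3 : (d i : ℂ) ≠ 0 := by exact_mod_cast (hρ.pos i).ne'
  rw [h1]
  field_simp
  linear_combination -(ρ i).character y * h2

theorem sq_bound [Fintype G] [Fintype Ω] (h : Hy A Ω w j f) (ω₀ : Ω)
    (hK : ∀ b : Ω, ∃ k ∈ Subgroup.normalClosure (A : Set G), k • ω₀ = b) {x : G} (hx : x ∈ A)
    (x1 : x ≠ 1) :
    ∑ z : G, ∑ g : G, (Nat.card (MulAction.fixedBy Ω ((z * x * z⁻¹)⁻¹ * (g * x * g⁻¹))) : ℝ) ≤
      (Nat.card G : ℝ) ^ 2 * (1 + j * Nat.card A / (Nat.card A - 1) ^ 2 * (w + 1)) := by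
  classical
  obtain ⟨N, d, ρ, hρ⟩ := exists_irrSys G
  obtain ⟨lam, hl⟩ := exists_lam h.ca
  have := finite_chars h.ca.comm'
  have := Fintype.ofFinite (A →* ℂˣ)
  obtain ⟨m, hm1, hm⟩ := exists_m hρ (permRep ℂ G Ω)
  let c : Fin N → ℤ := fun i => (mult ρ (1 : A →* ℂˣ) i : ℤ) - mult ρ lam i
  have hne : ∀ i, m i ≠ 0 → ∀ μ : A →* ℂˣ, μ ≠ 1 → mult ρ μ i = mult ρ lam i := fun i hi =>
    h.const hρ (by rw [hm1]; exact_mod_cast hi) hl
  have h1 : ∑ z : G, ∑ g : G,
      (Nat.card (MulAction.fixedBy Ω ((z * x * z⁻¹)⁻¹ * (g * x * g⁻¹))) : ℝ) =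
      (Nat.card G : ℝ) ^ 2 * ∑ i, m i * ((c i : ℝ) ^ 2 / d i) := by
    have h2 : ∀ z : G, ∑ g : G,
        (Nat.card (MulAction.fixedBy Ω ((z * x * z⁻¹)⁻¹ * (g * x * g⁻¹))) : ℂ) =
        Nat.card G * ∑ i, m i * ((c i : ℂ) ^ 2 / d i) := fun z => by
      have h3 := H1.PermChar.character_permRep (G := G) (Ω := Ω)
      simp only [← congrFun h3, hm]
      rw [Finset.sum_comm, Finset.mul_sum]
      refine Finset.sum_congr rfl fun i _ => ?_
      rw [← Finset.mul_sum, conv hρ]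
      by_cases hi : m i = 0
      · simp [hi]
      rw [char_const (x := x) h.ca (hne i hi) (mem_conjs.2 ⟨1, x, hx, x1, by simp⟩),
        char_const (x := (z * x * z⁻¹)⁻¹) h.ca (hne i hi)
          (mem_conjs.2 ⟨z, x⁻¹, A.inv_mem hx, by simpa using x1, by group⟩)]
      simp only [c]
      ring
    have h4 : ∑ z : G, ∑ g : G,
        (Nat.card (MulAction.fixedBy Ω ((z * x * z⁻¹)⁻¹ * (g * x * g⁻¹))) : ℂ) =
        (Nat.card G : ℂ) ^ 2 * ∑ i, m i * ((c i : ℂ) ^ 2 / d i) := by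
      simp only [h2, Finset.sum_const, Finset.card_univ, nsmul_eq_mul, ← Nat.card_eq_fintype_card]
      ring
    exact_mod_cast h4
  rw [h1]
  refine mul_le_mul_of_nonneg_left ?_ (sq_nonneg _)
  have h2 : Module.finrank ℂ (Representation.invariants
      ((permRep ℂ G Ω).comp (Subgroup.normalClosure (A : Set G)).subtype)) ≤ 1 := by
    refine finrank_le_one ⟨fun _ => 1, fun _ => rfl⟩ fun v => ⟨v.1 ω₀, Subtype.ext (funext fun b => ?_)⟩
    obtain ⟨k, hk, rfl⟩ := hK b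
    have := congrFun (v.2 ⟨k, hk⟩) (k • ω₀)
    change v.1 (k⁻¹ • k • ω₀) = _ at this
    rw [inv_smul_smul] at this
    simpa using this
  rw [avg_eq _ hm] at h2
  have h3 := sum_sq_one_sub hρ h.ca hl
  rw [h.hw] at h3
  have h3' : ∑ i, c i ^ 2 = w + 1 := h3
  have h4 : ∑ i, (c i : ℝ) ^ 2 = w + 1 := by exact_mod_cast h3'
  have hdeg : ∑ i, m i * d i = j * Nat.card A := by
    have := hm 1
    simp only [hρ.char_one, Representation.char_one, Module.finrank_fintype_fun_eq_card] at this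
    rw [← h.card, Nat.card_eq_fintype_card]
    exact_mod_cast this.symm
  have ha : (1 : ℝ) < Nat.card A := by exact_mod_cast h.ca.one_lt_card
  rw [← h4, Finset.mul_sum]
  refine le_trans (Finset.sum_le_sum (g := fun i => ((m i * Module.finrank ℂ
    (Representation.invariants ((ρ i).comp (Subgroup.normalClosure (A : Set G)).subtype)) : ℕ) : ℝ) +
      j * Nat.card A / (Nat.card A - 1) ^ 2 * (c i : ℝ) ^ 2) fun i _ => ?_) ?_
  · have h0 : (0 : ℝ) ≤ j * Nat.card A / (Nat.card A - 1) ^ 2 * (c i : ℝ) ^ 2 := by positivity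
    by_cases hi : m i = 0
    · simpa [hi] using h0
    have h5 := deg_eq_sum hρ h.ca i
    rw [← Finset.add_sum_erase _ _ (Finset.mem_univ 1), Finset.sum_congr rfl fun μ hμ =>
      hne i hi μ (Finset.mem_erase.1 hμ).1, Finset.sum_const, Finset.card_erase_of_mem
      (Finset.mem_univ _), Finset.card_univ, ← Nat.card_eq_fintype_card, card_chars h.ca.comm',
      smul_eq_mul] at h5
    have hd : (0 : ℝ) < d i := by exact_mod_cast hρ.pos i
    rcases Nat.eq_zero_or_pos (mult ρ lam i) with h6 | h6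
    · rw [h6, mul_zero, add_zero] at h5
      rw [inv_full (ker_of_deg h5)]
      have : (c i : ℝ) = d i := by simp [c, h6, h5]
      rw [this] at h0 ⊢
      rw [sq, mul_div_assoc, div_self hd.ne', mul_one]
      push_cast
      rw [← sq]
      linarith
    · have h7 : Nat.card A ≤ d i + 1 := by
        have := Nat.le_mul_of_pos_right (Nat.card A - 1) h6
        omega
      have h8 : (Nat.card A : ℝ) - 1 ≤ d i := by
        have : (Nat.card A : ℝ) ≤ d i + 1 := by exact_mod_cast h7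
        linarith
      have h9 : (m i : ℝ) * d i ≤ j * Nat.card A := by
        have := Finset.single_le_sum (f := fun i => m i * d i) (fun _ _ => Nat.zero_le _)
          (Finset.mem_univ i)
        rw [hdeg] at this
        exact_mod_cast this
      refine le_add_of_nonneg_of_le (by positivity) ?_
      rw [show (m i : ℝ) * ((c i : ℝ) ^ 2 / d i) = m i * d i / (d i : ℝ) ^ 2 * (c i : ℝ) ^ 2 by
        field_simp]
      gcongr
  · rw [Finset.sum_add_distrib]
    refine add_le_add ?_ le_rfl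
    exact_mod_cast h2

theorem E2' [Finite G] [Finite Ω] (h : Hy A Ω w j f)
    (hΓ : ∀ (g : G) a b, Γ a b → Γ (g • a) (g • b)) (ω₀ : Ω)
    (hK : ∀ b : Ω, ∃ k ∈ Subgroup.normalClosure (A : Set G), k • ω₀ = b) {x : G} (hx : x ∈ A)
    (x1 : x ≠ 1) : ((Nat.card {b // Γ ω₀ b} : ℤ) - cnt Γ x) ^ 2 ≤
      2 * j ^ 2 * (w + 1) * Nat.card {b // Γ ω₀ b} := by
  classical
  have := Fintype.ofFinite G
  have := Fintype.ofFinite Ω
  have hS := sq_bound h ω₀ hK hx x1
  set k := Nat.card {b // Γ ω₀ b} with hk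
  set n : ℝ := (Nat.card G : ℝ) with hn
  set a : ℝ := (Nat.card A : ℝ) with ha
  let M : Ω → Ω → ℝ := fun ω ω' => ∑ g : G, if (g * x * g⁻¹) • ω = ω' then 1 else 0
  have hc : (Fintype.card Ω : ℝ) = j * a := by
    rw [← Nat.card_eq_fintype_card, h.card]
    push_cast
    rfl
  have hc0 : (0 : ℝ) < j * a := by
    rw [← hc]
    exact_mod_cast Fintype.card_pos_iff.2 ⟨ω₀⟩
  have hn0 : 0 < n := by
    rw [hn]
    exact_mod_cast Nat.card_pos
  have h1 : ∀ ω, ∑ ω', M ω ω' = n := fun ω => by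
    simp only [M]
    rw [Finset.sum_comm]
    simp [hn]
  have h2 : ∑ ω, ∑ ω', M ω ω' ^ 2 = ∑ z : G, ∑ g : G,
      (Nat.card (MulAction.fixedBy Ω ((z * x * z⁻¹)⁻¹ * (g * x * g⁻¹))) : ℝ) := by
    have : ∀ ω, ∑ ω', M ω ω' ^ 2 = ∑ z : G, ∑ g : G,
        if ω ∈ MulAction.fixedBy Ω ((z * x * z⁻¹)⁻¹ * (g * x * g⁻¹)) then (1 : ℝ) else 0 := by
      intro ω
      simp only [M, sq, Finset.sum_mul_sum]
      rw [Finset.sum_comm]
      refine Finset.sum_congr rfl fun z _ => ?_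
      rw [Finset.sum_comm]
      refine Finset.sum_congr rfl fun g _ => ?_
      simp only [ite_mul, one_mul, zero_mul, Finset.sum_ite_eq, Finset.mem_univ, if_true,
        MulAction.mem_fixedBy, mul_smul (z * x * z⁻¹)⁻¹, inv_smul_eq_iff]
    simp only [this]
    rw [Finset.sum_comm]
    refine Finset.sum_congr rfl fun z _ => ?_
    rw [Finset.sum_comm]
    refine Finset.sum_congr rfl fun g _ => ?_
    rw [Finset.sum_boole, Nat.card_eq_fintype_card, Fintype.card_subtype]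
  have h3 : ∑ ω, ∑ ω', (if Γ ω ω' then (1 : ℝ) else 0) * M ω ω' = n * cnt Γ x := by
    have : ∀ g : G, (cnt Γ x : ℝ) = ∑ ω, ∑ ω', (if Γ ω ω' then (1 : ℝ) else 0) *
        if (g * x * g⁻¹) • ω = ω' then 1 else 0 := fun g => by
      rw [← cnt_conj hΓ x g, cnt_eq]
      simp only [ite_mul, one_mul, zero_mul]
    have e : n * cnt Γ x = ∑ _g : G, (cnt Γ x : ℝ) := by simp [hn]
    rw [e, Finset.sum_congr rfl fun g _ => this g]
    simp only [M, Finset.mul_sum]
    symm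
    rw [Finset.sum_comm]
    exact Finset.sum_congr rfl fun ω _ => Finset.sum_comm
  have h4 : ∀ ω, ∑ ω', (if Γ ω ω' then (1 : ℝ) else 0) = k := fun ω => by
    obtain ⟨g, -, rfl⟩ := hK ω
    rw [Finset.sum_boole, ← Fintype.card_subtype, ← Nat.card_eq_fintype_card, hk]
    congr 1
    refine (Nat.card_congr ((MulAction.toPerm g).subtypeEquiv fun b => ?_)).symm
    exact ⟨hΓ g _ _, fun e => by simpa using hΓ g⁻¹ _ _ e⟩
  have h5 := Finset.sum_mul_sq_le_sq_mul_sq (Finset.univ : Finset (Ω × Ω))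
    (fun p => if Γ p.1 p.2 then (1 : ℝ) else 0) (fun p => M p.1 p.2 - n / (j * a))
  have h6 : ∀ p : Prop, ∀ [Decidable p], (if p then (1 : ℝ) else 0) ^ 2 = if p then 1 else 0 :=
    fun p _ => by split_ifs <;> simp
  simp only [h6, Fintype.sum_prod_type, mul_sub, sub_sq, Finset.sum_sub_distrib,
    Finset.sum_add_distrib, ← Finset.sum_mul, ← Finset.mul_sum, h1, h2, h3, h4, Finset.sum_const,
    Finset.card_univ, nsmul_eq_mul, hc] at h5
  have ha4 : 4 ≤ a := by
    have h7 := h.big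
    have h8 : 0 < w := by
      rw [← h.hw]
      exact Nat.pos_of_ne_zero Subgroup.FiniteIndex.index_ne_zero
    have : 4 ≤ Nat.card A := by nlinarith
    rw [ha]
    exact_mod_cast this
  have h7 : j * a * (j * a / (a - 1) ^ 2) ≤ 2 * j ^ 2 := by
    rw [← mul_div_assoc, div_le_iff₀ (by nlinarith)]
    have : a * a ≤ 2 * (a - 1) ^ 2 := by nlinarith
    nlinarith [sq_nonneg (j : ℝ)]
  have h8 : ((k : ℝ) - cnt Γ x) ^ 2 ≤ 2 * j ^ 2 * (w + 1) * k := by
    refine le_of_mul_le_mul_left ?_ (pow_pos hn0 2)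
    set S := ∑ z : G, ∑ g : G,
      (Nat.card (MulAction.fixedBy Ω ((z * x * z⁻¹)⁻¹ * (g * x * g⁻¹))) : ℝ)
    have h9 : (n * cnt Γ x - n * k) ^ 2 ≤ j * a * k * (S - n ^ 2) := by
      rw [Fintype.card_prod, Nat.cast_mul, hc] at h5
      obtain ⟨u, hu⟩ : ∃ u, n = j * a * u := ⟨n / (j * a), (mul_div_cancel₀ n hc0.ne').symm⟩
      have e : n / (j * a) = u := by rw [hu, mul_div_cancel_left₀ _ hc0.ne']
      rw [e] at h5
      rw [hu] at h5 ⊢
      refine le_of_eq_of_le (by ring) (le_of_le_of_eq h5 (by ring))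
    have h10 : j * a * k * (S - n ^ 2) ≤
        j * a * k * (n ^ 2 * (j * a / (a - 1) ^ 2 * (w + 1))) := by
      gcongr
      linarith
    have h11 : j * a * (j * a / (a - 1) ^ 2) * (k * n ^ 2 * (w + 1)) ≤
        2 * j ^ 2 * (k * n ^ 2 * (w + 1)) := by gcongr
    nlinarith
  exact_mod_cast h8

theorem frat [Finite G] (hA : IsCA A) :
    Subgroup.normalizer (A : Set G) ⊔ Subgroup.normalClosure (A : Set G) = ⊤ := by
  obtain ⟨p, hp, hpa⟩ := Nat.exists_prime_and_dvd hA.one_lt_card.ne'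
  have := Fact.mk hp
  obtain ⟨a, ha⟩ := exists_prime_orderOf_dvd_card' p hpa
  set K := Subgroup.normalClosure (A : Set G)
  let a' : K := ⟨a, Subgroup.subset_normalClosure a.2⟩
  have ha' : orderOf a' = p := by
    rw [← ha, ← Subgroup.orderOf_coe, ← Subgroup.orderOf_coe a]
  have a1 : a' ≠ 1 := fun e => hp.one_lt.ne (by rw [← ha', e, orderOf_one])
  obtain ⟨P, hP⟩ := IsPGroup.exists_le_sylow (P := Subgroup.zpowers a') (p := p)
    (IsPGroup.of_card (n := 1) (by rw [Nat.card_zpowers, ha', pow_one]))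
  have haP : a' ∈ (P : Subgroup K) := hP (Subgroup.mem_zpowers _)
  have : Nontrivial (P : Subgroup K) := ⟨⟨⟨a', haP⟩, 1, fun e => a1 (congrArg Subtype.val e)⟩⟩
  have := P.isPGroup'.center_nontrivial
  obtain ⟨z, hz⟩ := exists_ne (1 : Subgroup.center (P : Subgroup K))
  have hc : ∀ u : (P : Subgroup K), ((u : K) : G) * z.1.1 = z.1.1 * u := fun u =>
    congrArg (fun t : (P : Subgroup K) => ((t : K) : G)) (Subgroup.mem_center_iff.1 z.2 u)
  have a1' : (a : G) ≠ 1 := fun e => a1 (Subtype.ext e)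
  have hzA : (z.1.1 : G) ∈ A := (hA.cent _ a.2 a1' _).1 (hc ⟨a', haP⟩).symm
  have hPA : (P : Subgroup K).map K.subtype ≤ A := by
    rintro _ ⟨u, hu, rfl⟩
    exact (hA.cent _ hzA (fun e => hz (Subtype.ext (Subtype.ext (Subtype.ext e)))) _).1
      (hc ⟨u, hu⟩)
  rw [eq_top_iff, ← P.normalizer_sup_eq_top]
  refine sup_le_sup_right (fun y hy => hA.mem_norm a.2 a1' (hPA ?_)) _
  exact (Subgroup.mem_normalizer_iff.1 hy _).1 ⟨a', haP, rfl⟩

theorem E2 [Finite G] [Finite Ω] (h : Hy A Ω w j f)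
    (hΓ : ∀ (g : G) a b, Γ a b → Γ (g • a) (g • b))
    (hN : ∀ z ∈ Subgroup.normalizer (A : Set G), ∀ ω : Ω, ∃ a ∈ A, z • ω = a • ω) (ω₀ : Ω)
    (hs : ∀ a b, Γ a b → a ∈ MulAction.orbit G ω₀ ∧ b ∈ MulAction.orbit G ω₀) {x : G}
    (hx : x ∈ A) (x1 : x ≠ 1) : ((Nat.card {b // Γ ω₀ b} : ℤ) - cnt Γ x) ^ 2 ≤
      2 * j ^ 2 * (w + 1) * Nat.card {b // Γ ω₀ b} := by
  have hfree : ∀ a ∈ A, a ≠ 1 → ∀ ω : MulAction.orbit G ω₀, a • ω ≠ ω :=
    fun a ha a1 ω e => h.free a ha a1 ω (congrArg Subtype.val e)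
  obtain ⟨j', hj⟩ : ∃ j', Nat.card (MulAction.orbit G ω₀) = j' * Nat.card A :=
    ⟨_, (Nat.card_congr (MulAction.selfEquivOrbitsQuotientProd (G := A) fun b =>
      eq_bot_iff.2 fun a ha => by
        by_contra a1
        exact hfree a a.2 (fun e => a1 (Subtype.ext e)) b ha)).trans (Nat.card_prod _ _)⟩
  have hjj : j' ≤ j := by
    refine Nat.le_of_mul_le_mul_right ?_ (Nat.card_pos (α := A))
    rw [← hj, ← h.card]
    exact Nat.card_le_card_of_injective _ Subtype.val_injective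
  have h' : Hy A (MulAction.orbit G ω₀) w j' f :=
    ⟨h.ca, h.hw, hfree, hj, fun g g1 => le_trans (Nat.card_le_card_of_injective
      (fun ω => ⟨ω.1.1, congrArg Subtype.val ω.2⟩) fun a b e =>
        Subtype.ext (Subtype.ext (congrArg (fun t : MulAction.fixedBy Ω g => t.1) e))) (h.fix g g1),
      le_trans (by gcongr) h.big, lt_of_le_of_lt (by gcongr) h.big', h.nn⟩
  have := E2' (Γ := fun a b : MulAction.orbit G ω₀ => Γ a b) h' (fun g a b => hΓ g a b)
    ⟨ω₀, MulAction.mem_orbit_self _⟩ (fun b => by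
      obtain ⟨_, g, rfl⟩ := b
      have hg : g ∈ Subgroup.normalClosure (A : Set G) ⊔ Subgroup.normalizer (A : Set G) := by
        rw [sup_comm, frat h.ca]
        trivial
      rw [← SetLike.mem_coe, Subgroup.normal_mul] at hg
      obtain ⟨k, hk, z, hz, rfl⟩ := hg
      obtain ⟨a, ha, e⟩ := hN z hz ω₀
      refine ⟨k * a, mul_mem hk (Subgroup.subset_normalClosure ha), Subtype.ext ?_⟩
      change (k * a) • ω₀ = (k * z) • ω₀
      rw [mul_smul, mul_smul, e]) hx x1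
  have e1 : Nat.card {b : MulAction.orbit G ω₀ // Γ ω₀ b} = Nat.card {b // Γ ω₀ b} :=
    Nat.card_congr (Equiv.subtypeSubtypeEquivSubtype fun hb => (hs _ _ hb).2)
  have e2 : cnt (fun a b : MulAction.orbit G ω₀ => Γ a b) x = cnt Γ x :=
    Nat.card_congr (Equiv.subtypeSubtypeEquivSubtype (q := fun ω => Γ ω (x • ω))
      fun hb => (hs _ _ hb).1)
  rw [e1, e2] at this
  refine this.trans ?_
  gcongr

theorem two [Finite G] [Finite Ω] (h : Hy A Ω w 1 f) (a b c e : Ω) (hab : a ≠ b) (hce : c ≠ e) :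
    ∃ g : G, g • a = c ∧ g • b = e := by
  have tr : ∀ u v : Ω, ∃ x ∈ A, x • u = v := fun u v => by
    have hi : Function.Injective fun x : A => (x : G) • u := fun x y e => by
      by_contra hxy
      refine h.free _ (y⁻¹ * x).2 (fun e => hxy (inv_mul_eq_one.1 (Subtype.ext e)).symm) u ?_
      simp only [Subgroup.coe_mul, InvMemClass.coe_inv, mul_smul, inv_smul_eq_iff]
      exact e
    obtain ⟨x, hx⟩ := ((Nat.bijective_iff_injective_and_card _).2
      ⟨hi, by rw [h.card, one_mul]⟩).2 v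
    exact ⟨x, x.2, hx⟩
  obtain ⟨x, hx, rfl⟩ := tr a b
  obtain ⟨y, hy, rfl⟩ := tr c e
  have h1 := E1 (Γ := fun u v => ∃ g : G, g • a = u ∧ g • x • a = v) h
    (fun g _ _ ⟨z, h1, h2⟩ => ⟨g * z, by rw [mul_smul, h1], by rw [mul_smul, h2]⟩) hx
    (fun e => hab (by rw [e, one_smul])) hy (fun e => hce (by rw [e, one_smul]))
  have : Nonempty {ω // ∃ g : G, g • a = ω ∧ g • x • a = x • ω} := ⟨⟨a, 1, by simp, by simp⟩⟩
  have h2 : 0 < cnt (fun u v => ∃ g : G, g • a = u ∧ g • x • a = v) x := Nat.card_pos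
  rw [h1] at h2
  obtain ⟨ω, g, h3, h4⟩ := (Nat.card_pos_iff.1 h2).1
  obtain ⟨z, hz, rfl⟩ := tr ω c
  exact ⟨z * g, by rw [mul_smul, h3], by
    rw [mul_smul, h4, ← mul_smul, h.ca.comm z hz y hy, mul_smul]⟩

end Cfsg.Agent.SG.Ex
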