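import Mathlib
import Cfsg.Agent.H3.ExtMat

/-!
The extension-field subgroups of prime degree in the special linear group: reduction to the
Singer case.
-/

set_option autoImplicit false

namespace Cfsg.Agent.SG

open Module Cfsg.Agent.H7 Cfsg.Agent.H3.Ext Matrix

universe u

/-- The Singer case: an overgroup of the normaliser of a Singer cycle is everything. -/
def Singer : Prop :=
  ∀ (F K : Type u) [Field F] [Fintype F] [Field K] [Finite K] [Algebra F K],
    (finrank F K).Prime → 13 ≤ finrank F K → ∀ X : Subgroup (K ≃ₗ[F] K), X ≤ SLV F K →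
      (∀ g : K ≃ₗ[F] K, Semi K g → g ∈ SLV F K → g ∈ X) → (∃ g ∈ X, ¬ Semi K g) → SLV F K ≤ X

section

variable {F K V : Type*} [Field F] [Field K] [Algebra F K] [AddCommGroup V] [Module F V]
  [Module K V] [IsScalarTower F K V]

/-- Conjugation by a `K`-linear equivalence. -/
noncomputable def cj (e : V ≃ₗ[K] K) : (V ≃ₗ[F] V) ≃* (K ≃ₗ[F] K) where
  toFun g := ((e.restrictScalars F).symm.trans g).trans (e.restrictScalars F)
  invFun g := ((e.restrictScalars F).trans g).trans (e.restrictScalars F).symm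
  left_inv g := by ext x; simp
  right_inv g := by ext x; simp
  map_mul' g h := by ext x; simp

theorem cj_apply (e : V ≃ₗ[K] K) (g : V ≃ₗ[F] V) (x : K) : cj e g x = e (g (e.symm x)) := rfl

theorem cj_semi (e : V ≃ₗ[K] K) (g : V ≃ₗ[F] V) : Semi K (cj (F := F) e g) ↔ Semi K g := by
  constructor
  · intro h l
    obtain ⟨m, hm⟩ := h l
    refine ⟨m, fun x => e.injective ?_⟩
    have := hm (e x)
    simpa only [cj_apply, map_smul, LinearEquiv.symm_apply_apply] using this
  · intro h l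
    obtain ⟨m, hm⟩ := h l
    exact ⟨m, fun x => by rw [cj_apply, cj_apply, map_smul, hm, map_smul]⟩

theorem cj_SLV (e : V ≃ₗ[K] K) (g : V ≃ₗ[F] V) : cj (F := F) e g ∈ SLV F K ↔ g ∈ SLV F V := by
  rw [mem_SLV, mem_SLV, ← LinearMap.det_conj (g : V →ₗ[F] V) (e.restrictScalars F)]
  rfl

theorem exists_SLV_not_semi' (h3 : 3 ≤ finrank F K) : ∃ g ∈ SLV F K, ¬ Semi K g := by
  have : FiniteDimensional F K := Module.finite_of_finrank_pos (by omega)
  obtain ⟨v, -, hv⟩ := exists_notMem_of_finrank_lt (U := F ∙ (1 : K)) (W := ⊤) (by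
    have := finrank_span_singleton_le (F := F) (1 : K)
    rw [finrank_top]; omega)
  have hv0 : v ≠ 0 := fun e => hv (by simp [e])
  obtain ⟨w, -, hw⟩ := exists_notMem_of_finrank_lt (U := (F ∙ (1 : K)) ⊔ F ∙ v) (W := ⊤) (by
    have h1 := finrank_span_singleton_le (F := F) (1 : K)
    have h2 := finrank_span_singleton_le (F := F) v
    have := Submodule.finrank_add_le_finrank_add_finrank (F ∙ (1 : K)) (F ∙ v)
    rw [finrank_top]; omega)
  obtain ⟨φ, hφ, hφ0⟩ := exists_dual_one hw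
  have h1 := hφ0 v (Submodule.mem_sup_right (Submodule.mem_span_singleton_self v))
  have h2 := hφ0 1 (Submodule.mem_sup_left (Submodule.mem_span_singleton_self 1))
  refine ⟨_, transvection_mem_SLV h1, fun h => ?_⟩
  have key : ∀ l x : K, (l * x + φ (l * x) • v) = (l + φ l • v) * (x + φ x • v) := by
    intro l x
    obtain ⟨m, hm⟩ := h l
    have h3 := hm 1
    have h4 := hm x
    simp only [LinearEquiv.transvection.coe_apply, LinearMap.transvection.apply, h2,
      zero_smul, add_zero, smul_eq_mul, mul_one] at h3 h4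
    rw [h4, h3]
  have h5 := key v (v⁻¹ * w)
  rw [mul_inv_cancel_left₀ hv0, hφ, h1, zero_smul, add_zero, mul_add, mul_inv_cancel_left₀ hv0,
    one_smul, add_right_inj, mul_smul_comm] at h5
  apply hv
  have h6 : φ (v⁻¹ * w) • v = 1 := by
    apply mul_left_cancel₀ hv0
    rw [mul_smul_comm, ← h5, mul_one]
  have h7 : φ (v⁻¹ * w) ≠ 0 := fun e => by simp [e] at h6
  exact Submodule.mem_span_singleton.mpr ⟨(φ (v⁻¹ * w))⁻¹, by rw [← h6, inv_smul_smul₀ h7]⟩

end

theorem s5636_of (hS : Singer.{u}) {F : Type u} [Field F] [Fintype F] (n : ℕ) (hn : 13 ≤ n)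
    (r : ℕ) (hr : r.Prime) (K : Subalgebra F (Matrix (Fin n) (Fin n) F))
    (hK : Geo.IsFieldSubalgebra r K) :
    Geo.IsMaximalIn (Geo.specialLinear (Fin n) F)
      (Geo.subalgebraNormalizer K ⊓ Geo.specialLinear (Fin n) F) := by
  rcases lt_or_ge r n with hlt | hle
  · exact (ext_maximal hr (by simpa using hlt) hK).2
  have : Nonempty (Fin n) := ⟨⟨0, by omega⟩⟩
  let _ : Field K := (Asch.isField_of_inv hK.comm hK.inv).toField
  have h := finrank_mul_finrank F K (Fin n → F)
  rw [hK.finrank_eq, finrank_fintype_fun_eq_card, Fintype.card_fin] at h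
  have hm : finrank K (Fin n → F) = 1 := by
    rcases Nat.lt_trichotomy (finrank K (Fin n → F)) 1 with h1 | h1 | h1
    · have : finrank K (Fin n → F) = 0 := by omega
      rw [this] at h; omega
    · exact h1
    · have := Nat.mul_le_mul_left r (by omega : 2 ≤ finrank K (Fin n → F))
      omega
  rw [hm, mul_one] at h
  have : FiniteDimensional K (Fin n → F) := Module.finite_of_finrank_pos (by omega)
  obtain ⟨e⟩ : Nonempty ((Fin n → F) ≃ₗ[K] K) :=
    FiniteDimensional.nonempty_linearEquiv_of_finrank_eq (by rw [hm, finrank_self])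
  have hfr := hK.finrank_eq
  obtain ⟨g₀, hg₀, hg₀'⟩ := exists_SLV_not_semi' (F := F) (K := K) (by omega)
  obtain ⟨g₀, rfl⟩ := (cj (F := F) e).surjective g₀
  obtain ⟨g₀, rfl⟩ := toLE.surjective g₀
  rw [cj_SLV] at hg₀
  rw [cj_semi] at hg₀'
  refine isMaximalIn_of inf_le_right ⟨g₀, (mem_specialLinear_iff g₀).mpr hg₀,
    fun h => hg₀' ((mem_normalizer_iff g₀).mp h.1)⟩ fun X hX hX' g hg hgN k hk => ?_
  obtain ⟨_, ⟨k', hk', rfl⟩, e'⟩ := hS F K (hfr ▸ hr) (by omega)
    ((X.map toLE.toMonoidHom).map (cj (F := F) e).toMonoidHom)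
    (by
      rintro _ ⟨_, ⟨a, ha, rfl⟩, rfl⟩
      exact (cj_SLV e _).mpr ((mem_specialLinear_iff a).mp (hX' ha)))
    (fun a ha ha' => by
      obtain ⟨a, rfl⟩ := (cj (F := F) e).surjective a
      obtain ⟨a, rfl⟩ := toLE.surjective a
      exact ⟨_, ⟨a, hX ⟨(mem_normalizer_iff a).mpr ((cj_semi e _).mp ha),
        (mem_specialLinear_iff a).mpr ((cj_SLV e _).mp ha')⟩, rfl⟩, rfl⟩)
    ⟨_, ⟨_, ⟨g, hg, rfl⟩, rfl⟩, fun h => hgN ⟨(mem_normalizer_iff g).mpr ((cj_semi e _).mp h),
      hX' hg⟩⟩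
    ((cj_SLV e _).mpr ((mem_specialLinear_iff k).mp hk))
  exact toLE.injective ((cj (F := F) e).injective e') ▸ hk'

end Cfsg.Agent.SG
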