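import Mathlib
import Cfsg.Agent.SG.Mat
import Cfsg.Agent.H4.CABasic

/-!
The Singer cycle acting on the points of the projective space.
-/

set_option autoImplicit false

namespace Cfsg.Agent.SG

open Module Cfsg.Agent.H7 Cfsg.Agent.H3.Ext
open scoped LinearAlgebra.Projectivization

variable (F K : Type*) [Field F] [Field K] [Algebra F K]

/-- The action on points. -/
noncomputable def pm : (K ≃ₗ[F] K) →* Equiv.Perm (ℙ F K) := MulAction.toPermHom _ _

/-- Multiplication by a unit. -/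
noncomputable def mulE : Kˣ →* (K ≃ₗ[F] K) := DistribMulAction.toModuleAut F K

/-- The elements of norm one. -/
noncomputable def C1 : Subgroup Kˣ := (Units.map (Algebra.norm F : K →* F)).ker

variable {F K}

theorem mulE_apply (u : Kˣ) (x : K) : mulE F K u x = u * x := rfl

theorem mem_C1 {u : Kˣ} : u ∈ C1 F K ↔ Algebra.norm F (u : K) = 1 := by
  rw [C1, MonoidHom.mem_ker, ← Units.val_inj]; rfl

theorem mulE_mem_SLV {u : Kˣ} : mulE F K u ∈ SLV F K ↔ u ∈ C1 F K := by
  rw [mem_SLV, mem_C1, Algebra.norm_apply]; rfl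

theorem semi_mulE (u : Kˣ) : Semi K (mulE F K u) := fun l => ⟨l, fun x => by
  simp only [mulE_apply, smul_eq_mul]; ring⟩

theorem pm_mk (g : K ≃ₗ[F] K) {v : K} (hv : v ≠ 0) :
    pm F K g (Projectivization.mk F v hv) =
      Projectivization.mk F (g v) (by simpa using hv) := rfl

theorem pm_mk_eq {g : K ≃ₗ[F] K} {v w : K} (hv : v ≠ 0) (hw : w ≠ 0) :
    pm F K g (Projectivization.mk F v hv) = Projectivization.mk F w hw ↔
      ∃ a : F, g v = a • w := by
  rw [pm_mk, Projectivization.mk_eq_mk_iff']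
  exact ⟨fun ⟨a, h⟩ => ⟨a, h.symm⟩, fun ⟨a, h⟩ => ⟨a, h.symm⟩⟩

theorem pm_eq_one {g : K ≃ₗ[F] K} :
    pm F K g = 1 ↔ ∃ c : F, ∀ x, g x = c • x := by
  constructor
  · intro h
    obtain ⟨c, hc⟩ := LinearMap.exists_eq_smul_id_of_forall_notLinearIndependent
      (f := (g : K →ₗ[F] K)) fun v hv => by
        have hv0 : v ≠ 0 := by simpa using hv.ne_zero 0
        obtain ⟨a, ha⟩ := (pm_mk_eq (g := g) hv0 hv0).mp (by rw [h]; rfl)
        have := (LinearIndependent.pair_iff.mp hv) a (-1) (by simp [ha])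
        simp at this
    exact ⟨c, fun x => by simpa using LinearMap.congr_fun hc x⟩
  · rintro ⟨c, hc⟩
    ext x
    induction x using Projectivization.ind with
    | h v hv => exact (pm_mk_eq hv hv).mpr ⟨c, hc v⟩

theorem pm_mulE_fix {u : Kˣ} {x : ℙ F K} (h : pm F K (mulE F K u) x = x) :
    ∃ c : F, (u : K) = algebraMap F K c := by
  induction x using Projectivization.ind with
  | h v hv =>
    obtain ⟨a, ha⟩ := (pm_mk_eq hv hv).mp h
    rw [mulE_apply, Algebra.smul_def] at ha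
    exact ⟨a, mul_right_cancel₀ hv ha⟩

theorem pm_mulE_of {u : Kˣ} {c : F} (h : (u : K) = algebraMap F K c) :
    pm F K (mulE F K u) = 1 := by
  ext x
  induction x using Projectivization.ind with
  | h v hv => exact (pm_mk_eq hv hv).mpr ⟨c, by rw [mulE_apply, h, Algebra.smul_def]⟩

/-- An element outside the ground field generates an extension of prime degree. -/
theorem adjoin_top (hn : (finrank F K).Prime) {a : K} (ha : ∀ c : F, a ≠ algebraMap F K c) :
    Algebra.adjoin F {a} = ⊤ := by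
  have : FiniteDimensional F K := Module.finite_of_finrank_pos hn.pos
  have hs := IntermediateField.isSimpleOrder_of_finrank_prime F K hn
  rcases hs.eq_bot_or_eq_top (IntermediateField.adjoin F {a}) with h | h
  · have : a ∈ (⊥ : IntermediateField F K) := h ▸ IntermediateField.mem_adjoin_simple_self F a
    obtain ⟨c, hc⟩ := IntermediateField.mem_bot.mp this
    exact absurd hc.symm (ha c)
  · rw [← IntermediateField.adjoin_simple_toSubalgebra_of_isAlgebraic
      (Algebra.IsAlgebraic.isAlgebraic a), h]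
    rfl

theorem semi_of_conj (hn : (finrank F K).Prime) {a b : K} (ha : ∀ c : F, a ≠ algebraMap F K c)
    {g : K ≃ₗ[F] K} (h : ∀ x, g (a * x) = b * g x) : Semi K g := by
  intro l
  have hl : l ∈ Algebra.adjoin F {a} := by rw [adjoin_top hn ha]; trivial
  induction hl using Algebra.adjoin_induction with
  | mem x hx => rw [Set.mem_singleton_iff.mp hx]; exact ⟨b, h⟩
  | algebraMap r => exact ⟨algebraMap F K r, fun x => by rw [algebraMap_smul, algebraMap_smul, map_smul]⟩
  | add x y _ _ hx hy =>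
    obtain ⟨m, hm⟩ := hx
    obtain ⟨m', hm'⟩ := hy
    exact ⟨m + m', fun z => by rw [add_smul, map_add, hm, hm', add_smul]⟩
  | mul x y _ _ hx hy =>
    obtain ⟨m, hm⟩ := hx
    obtain ⟨m', hm'⟩ := hy
    exact ⟨m * m', fun z => by rw [mul_smul, hm, hm', mul_smul]⟩

/-- A semilinear map is a field automorphism followed by a multiplication. -/
theorem semi_iff {g : K ≃ₗ[F] K} :
    Semi K g ↔ ∃ σ : K ≃ₐ[F] K, ∀ x, g x = g 1 * σ x := by
  constructor
  · intro h
    have h1 : g 1 ≠ 0 := by simp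
    have key : ∀ l x, g (l * x) = (g 1)⁻¹ * g l * g x := fun l x => by
      obtain ⟨m, hm⟩ := h l
      have := hm 1
      simp only [smul_eq_mul, mul_one] at hm this
      rw [hm, this]; field_simp
    let e : K ≃ₗ[F] K := g.trans (mulE F K (Units.mk0 _ h1)⁻¹)
    have he : ∀ x, e x = (g 1)⁻¹ * g x := fun x => rfl
    refine ⟨AlgEquiv.ofLinearEquiv e (by rw [he]; field_simp) fun x y => ?_, fun x => ?_⟩
    · rw [he, he, he, key]; ring
    · rw [AlgEquiv.ofLinearEquiv_apply, he]; field_simp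
  · rintro ⟨σ, h⟩ l
    exact ⟨σ l, fun x => by rw [h (l • x), h x, smul_eq_mul, smul_eq_mul, map_mul]; ring⟩

theorem det_algEquiv_mul (u : Kˣ) (σ : K ≃ₐ[F] K) :
    LinearMap.det ((mulE F K u * σ.toLinearEquiv : K ≃ₗ[F] K) : K →ₗ[F] K) =
      Algebra.norm F (u : K) * LinearMap.det (σ.toLinearEquiv : K →ₗ[F] K) := by
  rw [Algebra.norm_apply, ← map_mul]; rfl

/-- The image of `X` in the symmetric group on the points. -/
noncomputable abbrev GX (X : Subgroup (K ≃ₗ[F] K)) : Subgroup (Equiv.Perm (ℙ F K)) := X.map (pm F K)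

/-- The Singer cycle in the image of `X`. -/
noncomputable def AX (X : Subgroup (K ≃ₗ[F] K)) : Subgroup (GX X) :=
  ((C1 F K).map ((pm F K).comp (mulE F K))).subgroupOf (GX X)

theorem mem_AX {X : Subgroup (K ≃ₗ[F] K)} {a : GX X} :
    a ∈ AX X ↔ ∃ u ∈ C1 F K, pm F K (mulE F K u) = a := Iff.rfl

theorem AX_semireg {X : Subgroup (K ≃ₗ[F] K)} {a : GX X} (ha : a ∈ AX X) {x : ℙ F K}
    (h : a • x = x) : a = 1 := by
  obtain ⟨u, -, hu⟩ := mem_AX.mp ha
  obtain ⟨c, hc⟩ := pm_mulE_fix (F := F) (u := u) (x := x) (by rw [hu]; exact h)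
  exact Subtype.ext (hu ▸ pm_mulE_of hc)

theorem pm_conj {g : K ≃ₗ[F] K} {u u' : Kˣ}
    (h : pm F K g * pm F K (mulE F K u) = pm F K (mulE F K u') * pm F K g) :
    ∃ c : F, ∀ x, g (u * x) = (c • (u' : K)) * g x := by
  obtain ⟨c, hc⟩ := pm_eq_one.mp (show pm F K ((mulE F K u' * g)⁻¹ * (g * mulE F K u)) = 1 by
    rw [map_mul, map_inv, map_mul, map_mul, h, inv_mul_cancel])
  refine ⟨c, fun x => ?_⟩
  have h1 := congrArg (mulE F K u' * g) (hc x)
  rw [LinearEquiv.mul_apply, LinearEquiv.mul_apply, ← LinearEquiv.mul_apply,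
    ← LinearEquiv.mul_apply, mul_inv_cancel, map_smul] at h1
  rw [smul_mul_assoc]
  exact h1

theorem algEquiv_eq_one (hn : (finrank F K).Prime) {a : K} (ha : ∀ c : F, a ≠ algebraMap F K c)
    {σ : K ≃ₐ[F] K} (h : σ a = a) : σ = 1 := by
  ext l
  have hl : l ∈ Algebra.adjoin F {a} := by rw [adjoin_top hn ha]; trivial
  induction hl using Algebra.adjoin_induction with
  | mem x hx => rw [Set.mem_singleton_iff.mp hx]; exact h
  | algebraMap r => simp
  | add x y _ _ hx hy => rw [map_add, map_add, hx, hy]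
  | mul x y _ _ hx hy => rw [map_mul, map_mul, hx, hy]

variable [Fintype F] [Finite K]

theorem card_gal : Nat.card (K ≃ₐ[F] K) = finrank F K := IsGalois.card_aut_eq_finrank F K

theorem eigen_one (hn : (finrank F K).Prime) (h2 : finrank F K ≠ 2) {u : K}
    (hu : Algebra.norm F u = 1) (ha : ∀ c : F, u ≠ algebraMap F K c) {σ : K ≃ₐ[F] K} {c : F}
    (h : σ u = c • u) : σ = 1 := by
  classical
  by_contra hσ
  have hu0 : u ≠ 0 := fun e => ha 0 (by simp [e])
  have hk : ∀ k : ℕ, (σ ^ k) u = c ^ k • u := fun k => by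
    induction k with
    | zero => simp
    | succ k ih => rw [pow_succ', AlgEquiv.mul_apply, ih, map_smul, h, smul_smul, ← pow_succ]
  have hc1 : c ≠ 1 := fun e => hσ (algEquiv_eq_one hn ha (by rw [h, e, one_smul]))
  have hcn : c ^ finrank F K = 1 := by
    have := hk (finrank F K)
    rw [← card_gal, pow_card_eq_one', AlgEquiv.one_apply, card_gal] at this
    exact smul_left_injective F hu0 (by simpa using this.symm)
  have : Fact (finrank F K).Prime := ⟨hn⟩
  have hpr : IsPrimitiveRoot c (finrank F K) := by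
    rw [← orderOf_eq_prime hcn hc1]; exact IsPrimitiveRoot.orderOf c
  have hprod : ∏ τ : K ≃ₐ[F] K, (τ u * u⁻¹) = 1 := by
    refine Finset.prod_involution (fun τ _ => τ⁻¹) (fun τ _ => ?_) (fun τ _ hτ e => hτ ?_)
      (fun _ _ => Finset.mem_univ _) (fun _ _ => inv_inv _)
    · obtain ⟨k, rfl⟩ := mem_powers_of_prime_card (card_gal (F := F) (K := K)) hσ (g' := τ)
      have h1 := congrArg ((σ ^ k)⁻¹ : K ≃ₐ[F] K) (hk k)
      rw [← AlgEquiv.mul_apply, inv_mul_cancel, AlgEquiv.one_apply, map_smul] at h1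
      simp only
      rw [hk, Algebra.smul_def]
      rw [Algebra.smul_def] at h1
      field_simp
      exact h1.symm
    · have h1 : τ ^ 2 = 1 := by rw [pow_two]; nth_rewrite 1 [← e]; exact inv_mul_cancel τ
      have h3 : orderOf τ ∣ finrank F K := card_gal (F := F) (K := K) ▸ orderOf_dvd_natCard τ
      have h4 : orderOf τ = 1 := Nat.eq_one_of_dvd_coprimes
        ((Nat.coprime_primes Nat.prime_two hn).mpr h2.symm) (orderOf_dvd_of_pow_eq_one h1) h3
      rw [orderOf_eq_one_iff.mp h4, AlgEquiv.one_apply, mul_inv_cancel₀ hu0]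
  rw [Finset.prod_mul_distrib, ← Algebra.norm_eq_prod_automorphisms, hu, map_one, one_mul,
    Finset.prod_const, Finset.card_univ, ← Nat.card_eq_fintype_card, card_gal, inv_pow,
    inv_eq_one] at hprod
  have : NeZero (finrank F K) := ⟨hn.ne_zero⟩
  obtain ⟨i, -, hi⟩ := (hpr.map_of_injective (algebraMap F K).injective).eq_pow_of_pow_eq_one hprod
  exact ha (c ^ i) (by rw [map_pow, hi])

theorem card_C1 : Nat.card (C1 F K) = Nat.card (ℙ F K) := by
  have h1 := Subgroup.card_eq_card_quotient_mul_card_subgroup (C1 F K)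
  have h2 : Nat.card (Kˣ ⧸ C1 F K) = Nat.card Fˣ := Nat.card_congr
    (QuotientGroup.quotientKerEquivOfSurjective _ (FiniteField.unitsMap_norm_surjective F K)).toEquiv
  have h3 := Projectivization.card F K
  rw [h2, Nat.card_units, Nat.card_units, h3, mul_comm] at h1
  have : 1 < Nat.card F := Finite.one_lt_card
  exact (Nat.eq_of_mul_eq_mul_left (by omega) h1).symm

variable {X : Subgroup (K ≃ₗ[F] K)}

theorem card_AX (hn : (finrank F K).Prime)
    (hX : ∀ g : K ≃ₗ[F] K, Semi K g → g ∈ SLV F K → g ∈ X) :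
    ∃ j : ℕ, (j = 1 ∨ j = finrank F K ∧ finrank F K ∣ Fintype.card F - 1) ∧
      Nat.card (ℙ F K) = j * Nat.card (AX X) := by
  let f : C1 F K →* Equiv.Perm (ℙ F K) := ((pm F K).comp (mulE F K)).comp (C1 F K).subtype
  have hle : (C1 F K).map ((pm F K).comp (mulE F K)) ≤ GX X := by
    rintro _ ⟨u, hu, rfl⟩
    exact ⟨_, hX _ (semi_mulE u) (mulE_mem_SLV.mpr hu), rfl⟩
  have h1 : Nat.card (AX X) = Nat.card f.range := by
    rw [AX, Nat.card_congr (Subgroup.subgroupOfEquivOfLe hle).toEquiv]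
    simp only [f]
    rw [MonoidHom.range_comp, Subgroup.range_subtype]
  have h2 : Nat.card f.ker * Nat.card f.range = Nat.card (C1 F K) := by
    rw [← Subgroup.index_ker, Subgroup.card_mul_index]
  have hker : ∀ u : f.ker, ∃ c : F, ((u : C1 F K) : Kˣ) = algebraMap F K c := fun u =>
    pm_mulE_fix (x := Projectivization.mk F 1 one_ne_zero) (by
      have : pm F K (mulE F K (u : C1 F K)) = 1 := u.2
      rw [this]; rfl)
  have hexp : ∀ m : ℕ, (∀ u : f.ker, (((u : C1 F K) : Kˣ) : K) ^ m = 1) → Nat.card f.ker ∣ m :=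
    fun m hm => by
      rw [← IsCyclic.exponent_eq_card]
      exact Monoid.exponent_dvd_of_forall_pow_eq_one fun u =>
        Subtype.ext (Subtype.ext (Units.ext (by simpa using hm u)))
  have h3 := hexp (finrank F K) fun u => by
    obtain ⟨c, hc⟩ := hker u
    have := mem_C1.mp (u : C1 F K).2
    rw [hc, Algebra.norm_algebraMap] at this
    rw [hc, ← map_pow, this, map_one]
  have h4 := hexp (Fintype.card F - 1) fun u => by
    obtain ⟨c, hc⟩ := hker u
    have hc0 : c ≠ 0 := fun e => ((u : C1 F K) : Kˣ).ne_zero (by rw [hc, e, map_zero])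
    rw [hc, ← map_pow, FiniteField.pow_card_sub_one_eq_one c hc0, map_one]
  refine ⟨Nat.card f.ker, ?_, by rw [h1, h2, card_C1]⟩
  rcases (Nat.dvd_prime hn).mp h3 with h | h
  · exact Or.inl h
  · exact Or.inr ⟨h, h ▸ h4⟩

omit [Fintype F] [Finite K] in
theorem notMem_of_ne_one {u : Kˣ} {a : GX X} (hu : pm F K (mulE F K u) = a) (ha : a ≠ 1) (c : F) :
    (u : K) ≠ algebraMap F K c := fun e => ha (Subtype.ext (hu ▸ pm_mulE_of e))

omit [Fintype F] [Finite K] in
theorem mem_AX_of {g : K ≃ₗ[F] K} (hg : g ∈ X) (hs : g ∈ SLV F K) (h : ∀ x, g x = g 1 * x) :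
    (⟨pm F K g, g, hg, rfl⟩ : GX X) ∈ AX X := by
  have h1 : g 1 ≠ 0 := by simp
  have : mulE F K (Units.mk0 _ h1) = g := by ext x; rw [h x]; rfl
  exact mem_AX.mpr ⟨_, mulE_mem_SLV.mp (this ▸ hs), by rw [this]⟩

theorem AX_ne_bot (hn : (finrank F K).Prime) (h3 : 3 ≤ finrank F K)
    (hX : ∀ g : K ≃ₗ[F] K, Semi K g → g ∈ SLV F K → g ∈ X) : AX X ≠ ⊥ := by
  intro e
  obtain ⟨j, hj, h⟩ := card_AX hn hX
  rw [e, Subgroup.card_bot, mul_one, Projectivization.card_of_finrank F K rfl] at h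
  have hq : 1 < Nat.card F := Finite.one_lt_card
  have h1 : ∑ i ∈ Finset.range (finrank F K), 1 <
      ∑ i ∈ Finset.range (finrank F K), Nat.card F ^ i :=
    Finset.sum_lt_sum (fun i _ => Nat.one_le_pow _ _ (by omega))
      ⟨1, Finset.mem_range.mpr (by omega), by simpa using hq⟩
  simp only [Finset.sum_const, Finset.card_range, smul_eq_mul, mul_one] at h1
  omega

theorem isCA_AX (hn : (finrank F K).Prime) (h3 : 3 ≤ finrank F K) (hS : X ≤ SLV F K)
    (hX : ∀ g : K ≃ₗ[F] K, Semi K g → g ∈ SLV F K → g ∈ X) : Cfsg.Agent.H4.CABasic.IsCA (AX X) where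
  ne_bot := AX_ne_bot hn h3 hX
  cent a ha ha1 g := by
    obtain ⟨u, hu, e⟩ := mem_AX.mp ha
    constructor
    · intro h
      obtain ⟨_, g, hg, rfl⟩ := g
      have hu' := notMem_of_ne_one e ha1
      obtain ⟨c, hc⟩ := pm_conj (g := g) (u := u) (u' := u) (by
        rw [e]; exact congrArg Subtype.val h)
      obtain ⟨σ, hσ⟩ := semi_iff.mp (semi_of_conj hn hu' hc)
      have h1 := hc 1
      rw [mul_one, hσ, mul_comm] at h1
      have h2 := eigen_one hn (by omega) (mem_C1.mp hu) hu'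
        (mul_right_cancel₀ (by simp : g 1 ≠ 0) h1)
      exact mem_AX_of hg (hS hg) fun x => by rw [hσ x, h2]; rfl
    · intro hg
      obtain ⟨v, -, e'⟩ := mem_AX.mp hg
      apply Subtype.ext
      rw [Subgroup.coe_mul, Subgroup.coe_mul, ← e, ← e', ← map_mul, ← map_mul, ← map_mul,
        ← map_mul, mul_comm]

theorem mem_normalizer_AX (hn : (finrank F K).Prime) (h3 : 3 ≤ finrank F K)
    (hX : ∀ g : K ≃ₗ[F] K, Semi K g → g ∈ SLV F K → g ∈ X) {g : K ≃ₗ[F] K} (hg : g ∈ X) :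
    (⟨pm F K g, g, hg, rfl⟩ : GX X) ∈ Subgroup.normalizer (AX X : Set (GX X)) ↔ Semi K g := by
  constructor
  · intro h
    obtain ⟨a, ha, ha1⟩ := (AX X).bot_or_exists_ne_one.resolve_left (AX_ne_bot hn h3 hX)
    obtain ⟨u, -, e⟩ := mem_AX.mp ha
    obtain ⟨v, -, e'⟩ := mem_AX.mp ((Subgroup.mem_normalizer_iff.mp h a).mp ha)
    obtain ⟨c, hc⟩ := pm_conj (g := g) (u := u) (u' := v) (by
      rw [e, e']; simp)
    exact semi_of_conj hn (notMem_of_ne_one e ha1) hc
  · intro h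
    obtain ⟨σ, hσ⟩ := semi_iff.mp h
    refine Subgroup.mem_normalizer_fintype fun a ha => ?_
    obtain ⟨u, hu, e⟩ := mem_AX.mp ha
    refine mem_AX.mpr ⟨Units.map (σ : K →* K) u, mem_C1.mpr ?_, ?_⟩
    · rw [← mem_C1.mp hu]; exact Algebra.norm_eq_of_algEquiv σ _
    · rw [Subgroup.coe_mul, Subgroup.coe_mul, ← e, Subgroup.coe_inv, eq_mul_inv_iff_mul_eq,
        ← map_mul, ← map_mul]
      congr 1
      ext x
      simp only [LinearEquiv.mul_apply, mulE_apply]
      rw [hσ (u * x), hσ x, map_mul]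
      simp only [Units.coe_map, MonoidHom.coe_coe]
      ring

theorem not_normal_AX (hn : (finrank F K).Prime) (h3 : 3 ≤ finrank F K)
    (hX : ∀ g : K ≃ₗ[F] K, Semi K g → g ∈ SLV F K → g ∈ X) (hg : ∃ g ∈ X, ¬ Semi K g) :
    ¬ (AX X).Normal := fun h => by
  obtain ⟨g, hg, hg'⟩ := hg
  exact hg' ((mem_normalizer_AX hn h3 hX hg).mp (by
    rw [Subgroup.normalizer_eq_top]; trivial))

theorem exists_lift (σ : K ≃ₐ[F] K) : ∃ u : Kˣ, mulE F K u * σ.toLinearEquiv ∈ SLV F K := by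
  obtain ⟨u, hu⟩ := FiniteField.unitsMap_norm_surjective F K (LinearEquiv.det σ.toLinearEquiv)⁻¹
  refine ⟨u, ?_⟩
  rw [mem_SLV, det_algEquiv_mul, ← LinearEquiv.coe_det]
  have := congrArg Units.val hu
  simp only [Units.coe_map, MonoidHom.coe_coe] at this
  erw [this]
  rw [← Units.val_mul, inv_mul_cancel, Units.val_one]

theorem relIndex_AX (hn : (finrank F K).Prime) (h3 : 3 ≤ finrank F K) (hS : X ≤ SLV F K)
    (hX : ∀ g : K ≃ₗ[F] K, Semi K g → g ∈ SLV F K → g ∈ X) :
    (AX X).relIndex (Subgroup.normalizer (AX X : Set (GX X))) = finrank F K := by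
  choose u hu using exists_lift (F := F) (K := K)
  have hs : ∀ σ : K ≃ₐ[F] K, Semi K (mulE F K (u σ) * σ.toLinearEquiv) := fun σ =>
    semi_iff.mpr ⟨σ, fun x => by simp [mulE_apply]⟩
  let t : (K ≃ₐ[F] K) → Subgroup.normalizer (AX X : Set (GX X)) := fun σ =>
    ⟨_, (mem_normalizer_AX hn h3 hX (hX _ (hs σ) (hu σ))).mpr (hs σ)⟩
  rw [← card_gal, Subgroup.relIndex, Subgroup.index]
  refine (Nat.card_congr (Equiv.ofBijective (fun σ => QuotientGroup.mk (t σ)) ⟨?_, ?_⟩)).symm
  · intro σ τ h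
    obtain ⟨w, -, e⟩ := mem_AX.mp (Subgroup.mem_subgroupOf.mp (QuotientGroup.eq.mp h))
    obtain ⟨c, hc⟩ := pm_eq_one.mp (show pm F K ((mulE F K (u σ) * σ.toLinearEquiv * mulE F K w)⁻¹ *
        (mulE F K (u τ) * τ.toLinearEquiv)) = 1 by
      rw [map_mul, map_inv, map_mul _ _ (mulE F K w), e]; simp [t, mul_assoc])
    have h1 : ∀ x, (u τ : K) * τ x = c • ((u σ : K) * σ (w * x)) := fun x => by
      have h1 := congrArg (mulE F K (u σ) * σ.toLinearEquiv * mulE F K w) (hc x)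
      rw [← LinearEquiv.mul_apply, mul_inv_cancel_left, map_smul] at h1
      exact h1
    ext x
    have h2 := h1 1
    have h4 := h1 x
    rw [map_one, mul_one, mul_one] at h2
    rw [map_mul, ← mul_assoc, ← smul_mul_assoc, ← h2] at h4
    exact (mul_left_cancel₀ (u τ).ne_zero h4).symm
  · intro z
    induction z using QuotientGroup.induction_on with
    | H z =>
    obtain ⟨⟨_, g, hg, rfl⟩, hz⟩ := z
    obtain ⟨σ, hσ⟩ := semi_iff.mp ((mem_normalizer_AX hn h3 hX hg).mp hz)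
    refine ⟨σ, QuotientGroup.eq.mpr (Subgroup.mem_subgroupOf.mpr ?_)⟩
    have hm : (mulE F K (u σ) * σ.toLinearEquiv)⁻¹ * g ∈ X :=
      X.mul_mem (X.inv_mem (hX _ (hs σ) (hu σ))) hg
    have := mem_AX_of hm (hS hm) fun x => by
      apply (mulE F K (u σ) * σ.toLinearEquiv).injective
      have e : ∀ y, (mulE F K (u σ) * σ.toLinearEquiv)
          (((mulE F K (u σ) * σ.toLinearEquiv)⁻¹ * g) y) = g y := fun y => by
        rw [← LinearEquiv.mul_apply, mul_inv_cancel_left]
      have e1 := e 1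
      rw [e, hσ x, ← e1]
      simp only [LinearEquiv.mul_apply, mulE_apply, AlgEquiv.toLinearEquiv_apply, map_mul]
      ring
    convert this using 1
    apply Subtype.ext
    simp [t]

omit [Fintype F] [Finite K] in
/-- Two-transitivity on points, in terms of vectors. -/
theorem t2_of (h : ∀ x y x' y' : ℙ F K, x ≠ y → x' ≠ y' → ∃ g : GX X, g • x = x' ∧ g • y = y')
    (u w u' w' : K) (hu : u ≠ 0) (hw : w ∉ F ∙ u) (hu' : u' ≠ 0) (hw' : w' ∉ F ∙ u') :
    ∃ g ∈ X, ∃ a b : F, g u = a • u' ∧ g w = b • w' := by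
  have key : ∀ {u w : K} (hu : u ≠ 0), w ∉ F ∙ u → ∃ hw : w ≠ 0,
      Projectivization.mk F u hu ≠ Projectivization.mk F w hw := fun {u w} hu hw =>
    ⟨fun e => hw (by simp [e]), fun e => by
      obtain ⟨a, ha⟩ := (Projectivization.mk_eq_mk_iff' F _ _ _ _).mp e.symm
      exact hw (Submodule.mem_span_singleton.mpr ⟨a, ha⟩)⟩
  obtain ⟨h1, h2⟩ := key hu hw
  obtain ⟨h1', h2'⟩ := key hu' hw'
  obtain ⟨⟨_, g, hg, rfl⟩, e1, e2⟩ := h _ _ _ _ h2 h2'
  obtain ⟨a, ha⟩ := (pm_mk_eq hu hu').mp e1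
  obtain ⟨b, hb⟩ := (pm_mk_eq h1 h1').mp e2
  exact ⟨g, hg, a, b, ha, hb⟩

end Cfsg.Agent.SG
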