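import Mathlib

/-!
Counting and arithmetic lemmas for the double transitivity of the Singer case.
-/

set_option autoImplicit false

namespace Cfsg.Agent.SG.TwoA

theorem sum_swap {α β : Type*} [Fintype α] [Fintype β] (Q : α → β → Prop) :
    ∑ x, Nat.card {y // Q x y} = ∑ y, Nat.card {x // Q x y} := by
  classical
  simp only [Nat.card_eq_fintype_card, Fintype.card_subtype, Finset.card_filter]
  exact Finset.sum_comm

theorem card_prod_sub {α β : Type*} [Fintype α] [Finite β] (Q : α → β → Prop) :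
    Nat.card {p : α × β // Q p.1 p.2} = ∑ x, Nat.card {y // Q x y} := by
  rw [Nat.card_congr (Equiv.subtypeProdEquivSigmaSubtype Q), Nat.card_sigma]

theorem card_inv {G α : Type*} [Group G] [MulAction G α] (g : G) (S T : α → Prop)
    (h1 : ∀ x, S x → T (g • x)) (h2 : ∀ x, T x → S (g⁻¹ • x)) :
    Nat.card {x // S x} = Nat.card {x // T x} :=
  Nat.card_congr ((MulAction.toPerm g).subtypeEquiv fun x =>
    ⟨h1 x, fun h => by simpa using h2 _ h⟩)

theorem card_free {G α : Type*} [Group G] [MulAction G α]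
    (h : ∀ (g : G) (x : α), g • x = x → g = 1) :
    Nat.card α = Nat.card (Quotient (MulAction.orbitRel G α)) * Nat.card G := by
  rw [← Nat.card_prod]
  refine Nat.card_congr (MulAction.selfEquivOrbitsQuotientProd fun b => ?_)
  exact eq_bot_iff.mpr fun g hg => h g b hg

theorem dvd_free {G α : Type*} [Group G] [MulAction G α]
    (h : ∀ (g : G) (x : α), g • x = x → g = 1) (S : α → Prop)
    (hS : ∀ (g : G) x, S x → S (g • x)) : Nat.card G ∣ Nat.card {x // S x} := by
  let U : SubMulAction G α := ⟨{x | S x}, fun g {x} hx => hS g x hx⟩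
  have := card_free (G := G) (α := U) fun g x hx => h g x (congrArg Subtype.val hx)
  exact ⟨_, this.trans (mul_comm _ _)⟩

theorem dvd_sum_of_fib {α : Type*} [Fintype α] (W : α → ℕ) (D : ℕ)
    (h : ∀ m, m ≠ 0 → D ∣ Nat.card {r // W r = m}) : D ∣ ∑ r, W r := by
  classical
  have := Finset.sum_comp (s := (Finset.univ : Finset α)) (fun m : ℕ => m) W
  rw [this]
  refine Finset.dvd_sum fun m _ => ?_
  by_cases hm : m = 0
  · simp [hm]
  · have h1 := h m hm
    rw [Nat.card_eq_fintype_card, Fintype.card_subtype] at h1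
    rw [smul_eq_mul]
    exact Dvd.dvd.mul_right h1 _

theorem card_offDiag {α : Type*} [Fintype α] (S : α → Prop) (q : ℕ)
    (h : Nat.card {x // S x} = q + 1) :
    Nat.card {r : α × α // r.1 ≠ r.2 ∧ S r.1 ∧ S r.2} = q * (q + 1) := by
  classical
  rw [Nat.card_eq_fintype_card, Fintype.card_subtype] at h ⊢
  have : (Finset.univ.filter fun r : α × α => r.1 ≠ r.2 ∧ S r.1 ∧ S r.2) =
      (Finset.univ.filter S).offDiag := by
    ext r
    simp only [Finset.mem_filter, Finset.mem_univ, true_and, Finset.mem_offDiag]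
    tauto
  rw [this, Finset.offDiag_card, h]
  rw [Nat.sub_eq_iff_eq_add (Nat.le_mul_self _)]
  ring

theorem sum_ite_card {α : Type*} [Fintype α] (S : α → Prop) (W : α → ℕ) (k : ℕ)
    (h1 : ∀ x, S x → W x = k) (h2 : ∀ x, ¬ S x → W x = 0) :
    ∑ x, W x = Nat.card {x // S x} * k := by
  classical
  rw [Nat.card_eq_fintype_card, Fintype.card_subtype, Finset.card_filter, Finset.sum_mul]
  refine Finset.sum_congr rfl fun x _ => ?_
  by_cases hx : S x
  · simp [hx, h1 x hx]
  · simp [hx, h2 x hx]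

theorem geom (q m : ℕ) :
    ∃ R, ∑ i ∈ Finset.range (2 * m + 3), q ^ i = q * (q + 1) * R + 1 ∧ q ^ (2 * m) ≤ R := by
  induction m with
  | zero => exact ⟨1, by simp [Finset.sum_range_succ]; ring, by simp⟩
  | succ m ih =>
    obtain ⟨R, h1, -⟩ := ih
    refine ⟨R + q ^ (2 * (m + 1)), ?_, by omega⟩
    rw [show 2 * (m + 1) + 3 = 2 * m + 3 + 1 + 1 by ring, Finset.sum_range_succ,
      Finset.sum_range_succ, h1]
    ring

theorem big {n q m : ℕ} (hm : n = 2 * m + 3) (h13 : 13 ≤ n) (hq : 1 < q) (hd : n ∣ q - 1)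
    (h14 : q ≠ 14) : n < q ∧ 32 * n ^ 8 * q ^ 2 < q ^ (2 * m) := by
  obtain ⟨t, ht⟩ := hd
  have ht1 : 1 ≤ t := Nat.pos_of_ne_zero fun e => by rw [e] at ht; omega
  have hnq : n < q := by nlinarith [Nat.sub_add_cancel hq.le]
  refine ⟨hnq, ?_⟩
  have hn0 : 0 < n ^ 8 := by positivity
  have hq2 : 0 < q ^ 2 := by positivity
  by_cases h2 : 2 ≤ t
  · have h3 : 2 * n ≤ q := by nlinarith [Nat.sub_add_cancel hq.le]
    have h4 : (2 * n) ^ 8 ≤ q ^ 8 := Nat.pow_le_pow_left h3 8
    have h5 : q ^ 10 ≤ q ^ (2 * m) := Nat.pow_le_pow_right (by omega) (by omega)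
    have h6 : 32 * n ^ 8 < q ^ 8 := by
      rw [mul_pow] at h4
      omega
    calc 32 * n ^ 8 * q ^ 2 < q ^ 8 * q ^ 2 := Nat.mul_lt_mul_of_pos_right h6 hq2
      _ = q ^ 10 := by ring
      _ ≤ _ := h5
  · have h3 : t = 1 := by omega
    rw [h3] at ht
    have h5 : q ^ 12 ≤ q ^ (2 * m) := Nat.pow_le_pow_right (by omega) (by omega)
    have h4 : n ^ 8 ≤ q ^ 8 := Nat.pow_le_pow_left hnq.le 8
    have h6 : 32 < q ^ 2 := by nlinarith
    have h7 : 32 * n ^ 8 < q ^ 2 * q ^ 8 := by nlinarith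
    calc 32 * n ^ 8 * q ^ 2 < q ^ 2 * q ^ 8 * q ^ 2 := Nat.mul_lt_mul_of_pos_right h7 hq2
      _ = q ^ 12 := by ring
      _ ≤ _ := h5

theorem arith {n j e k c R q M : ℤ} (hP : n * c = q * (q + 1) * R + 1) (hjk : j * k = R * M)
    (he : 1 ≤ e) (hej : e ≤ j) (hjn : j ≤ n) (hk : k ≤ n * c) (hq : 2 ≤ q)
    (hE : (k - e * c) ^ 2 ≤ 4 * n ^ 4 * k) (hR : 32 * n ^ 8 * q ^ 2 < R) :
    e = n ∧ k + 1 = n * c := by
  have hn : 1 ≤ n := by omega
  have key : n * j * (k - e * c) = R * (n * M - j * e * (q * (q + 1))) - j * e := by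
    linear_combination n * hjk - j * e * hP
  have hq2 : 4 ≤ q ^ 2 := by nlinarith
  have hn2 : 1 ≤ n ^ 2 := by nlinarith
  have hn8 : n ^ 2 ≤ n ^ 8 := pow_le_pow_right₀ hn (by norm_num)
  have hR2 : 2 * n ^ 2 ≤ R := by nlinarith
  have hR0 : 1 ≤ R := by omega
  have hje : j * e ≤ n ^ 2 := by nlinarith
  have hje0 : 0 ≤ j * e := by nlinarith
  have hD : n * M - j * e * (q * (q + 1)) = 0 := by
    by_contra hD
    set D := n * M - j * e * (q * (q + 1))
    have h1 : R ^ 2 ≤ 4 * (R * D - j * e) ^ 2 := by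
      rcases lt_or_gt_of_ne hD with h | h
      · have : R ≤ -(R * D - j * e) := by nlinarith
        nlinarith
      · have : R ≤ 2 * (R * D - j * e) := by nlinarith
        nlinarith
    have hP2 : n * c ≤ 2 * q ^ 2 * R := by
      have : 0 ≤ (q * (q - 1) - 1) * R := by
        apply mul_nonneg <;> nlinarith
      nlinarith
    have h2 : (n * j) ^ 2 ≤ n ^ 4 := by
      have : n * j ≤ n ^ 2 := by nlinarith
      have h0 : 0 ≤ n * j := by nlinarith
      calc (n * j) ^ 2 ≤ (n ^ 2) ^ 2 := pow_le_pow_left₀ h0 this 2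
        _ = n ^ 4 := by ring
    have hn4 : 0 ≤ n ^ 4 := by positivity
    have h3 : (k - e * c) ^ 2 ≤ 4 * n ^ 4 * (2 * q ^ 2 * R) :=
      hE.trans (mul_le_mul_of_nonneg_left (hk.trans hP2) (by positivity))
    have h4 : (R * D - j * e) ^ 2 ≤ n ^ 4 * (4 * n ^ 4 * (2 * q ^ 2 * R)) := by
      rw [← key, mul_pow]
      exact mul_le_mul h2 h3 (by positivity) hn4
    have h5 : R * R ≤ (32 * n ^ 8 * q ^ 2) * R := by nlinarith
    have := le_of_mul_le_mul_right h5 (by omega)
    omega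
  rw [hD, mul_zero, zero_sub] at key
  have h6 : n * (k - e * c) = -e := by
    apply mul_left_cancel₀ (show j ≠ 0 by omega)
    linear_combination key
  have h7 : k - e * c = -1 := by
    by_contra h
    rcases lt_or_gt_of_ne h with h | h
    · nlinarith
    · nlinarith
  rw [h7] at h6
  have h8 : e = n := by omega
  refine ⟨h8, ?_⟩
  rw [h8] at h7
  omega

end Cfsg.Agent.SG.TwoA
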