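import Mathlib
import Cfsg.Agent.SG.CA
import Cfsg.Agent.SG.TwoA

/-!
Double transitivity on the points in the Singer case with `n` orbits of the Singer cycle.
-/

set_option autoImplicit false

namespace Cfsg.Agent.SG

open Module Cfsg.Agent.H7 Cfsg.Agent.H3.Ext
open scoped LinearAlgebra.Projectivization

variable {F K : Type*} [Field F] [Field K] [Algebra F K]

/-- The orbital of a pair of points. -/
def Orb (X : Subgroup (K ≃ₗ[F] K)) (x0 y0 x y : ℙ F K) : Prop :=
  ∃ g : GX X, g • x0 = x ∧ g • y0 = y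

/-- The span of two points. -/
noncomputable def spn (x y : ℙ F K) : Submodule F K := x.submodule ⊔ y.submodule

/-- Multiplication by a representative of a point. -/
noncomputable def psi (z : ℙ F K) : Equiv.Perm (ℙ F K) :=
  pm F K (mulE F K (Units.mk0 z.rep z.rep_nonzero))

theorem pm_mulE_mk (u : Kˣ) {v : K} (hv : v ≠ 0) :
    pm F K (mulE F K u) (Projectivization.mk F v hv) =
      Projectivization.mk F (u * v) (mul_ne_zero u.ne_zero hv) := rfl

theorem psi_eq (z u : ℙ F K) : psi z u =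
    Projectivization.mk F (z.rep * u.rep) (mul_ne_zero z.rep_nonzero u.rep_nonzero) := by
  have := pm_mulE_mk (F := F) (Units.mk0 z.rep z.rep_nonzero) u.rep_nonzero
  rw [Projectivization.mk_rep] at this
  exact this

theorem psi_comm (z u : ℙ F K) : psi z u = psi u z := by
  rw [psi_eq, psi_eq]
  congr 1
  exact mul_comm _ _

theorem pm_sub (g : K ≃ₗ[F] K) (x : ℙ F K) :
    (pm F K g x).submodule = x.submodule.map (g : K →ₗ[F] K) := by
  induction x using Projectivization.ind with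
  | h v hv =>
    rw [pm_mk, Projectivization.submodule_mk, Projectivization.submodule_mk, Submodule.map_span,
      Set.image_singleton]
    rfl

variable {X : Subgroup (K ≃ₗ[F] K)}

theorem spn_le (g : GX X) {x y u v : ℙ F K} (h : spn u v ≤ spn x y) :
    spn (g • u) (g • v) ≤ spn (g • x) (g • y) := by
  obtain ⟨g, g', -, rfl⟩ := g
  change spn (pm F K g' u) (pm F K g' v) ≤ spn (pm F K g' x) (pm F K g' y)
  simp only [spn, pm_sub, ← Submodule.map_sup]
  exact Submodule.map_mono h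

theorem AX_comm' {a b : GX X} (ha : a ∈ AX X) (hb : b ∈ AX X) : a * b = b * a := by
  obtain ⟨u, -, hu⟩ := mem_AX.mp ha
  obtain ⟨v, -, hv⟩ := mem_AX.mp hb
  apply Subtype.ext
  rw [Subgroup.coe_mul, Subgroup.coe_mul, ← hu, ← hv, ← map_mul, ← map_mul, ← map_mul, ← map_mul,
    mul_comm]

theorem AX_free (a : AX X) (x : ℙ F K) (h : a • x = x) : a = 1 :=
  Subtype.ext (AX_semireg a.2 h)

theorem dvd_cnt {Q : ℙ F K → ℙ F K → Prop} (hG : ∀ (g : GX X) x y, Q x y → Q (g • x) (g • y))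
    {a : GX X} (ha : a ∈ AX X) : Nat.card (AX X) ∣ Nat.card {x // Q x (a • x)} :=
  TwoA.dvd_free AX_free _ fun b x hx => by
    have := hG b x _ hx
    rw [smul_smul, AX_comm' b.2 ha, mul_smul] at this
    exact this

theorem card_line [Finite F] {x y : ℙ F K} (h : x ≠ y) :
    Nat.card {z : ℙ F K // z.submodule ≤ spn x y} = Nat.card F + 1 := by
  have h1 : finrank F (spn x y) = 2 := by
    have := finrank_span_eq_card (Projectivization.linearIndependent_pair_iff_ne.mpr h)
    rw [Matrix.range_cons, Matrix.range_cons, Matrix.range_empty, Set.union_empty,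
      Submodule.span_union, ← Projectivization.submodule_eq, ← Projectivization.submodule_eq]
      at this
    exact this
  rw [← Projectivization.card_of_finrank_two F _ h1]
  symm
  refine Nat.card_congr (Equiv.ofBijective (fun w => ⟨Projectivization.map (spn x y).subtype
    (spn x y).injective_subtype w, ?_⟩) ⟨fun w w' e => ?_, fun z => ?_⟩)
  · induction w using Projectivization.ind with
    | h v hv =>
      rw [Projectivization.map_mk, Projectivization.submodule_mk,
        Submodule.span_singleton_le_iff_mem]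
      exact v.2
  · exact Projectivization.map_injective _ (spn x y).injective_subtype (Subtype.ext_iff.mp e)
  · obtain ⟨z, hz⟩ := z
    induction z using Projectivization.ind with
    | h v hv =>
      have hz' := hz
      rw [Projectivization.submodule_mk, Submodule.span_singleton_le_iff_mem] at hz'
      exact ⟨Projectivization.mk F ⟨v, hz'⟩ (fun e => hv (congrArg Subtype.val e)), rfl⟩

theorem spn_mob {y v : K} {s t : F} (hst : s ≠ t) (h1 : v ≠ 0) (h2 : y * v ≠ 0)
    (h3 : (y + algebraMap F K s) * v ≠ 0) (h4 : (y + algebraMap F K t) * v ≠ 0) :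
    spn (Projectivization.mk F v h1) (Projectivization.mk F _ h2) =
      spn (Projectivization.mk F _ h3) (Projectivization.mk F _ h4) := by
  simp only [spn, Projectivization.submodule_mk]
  have m1 : ∀ a b : K, a ∈ (F ∙ a) ⊔ (F ∙ b) := fun a b =>
    Submodule.mem_sup_left (Submodule.mem_span_singleton_self a)
  have m2 : ∀ a b : K, b ∈ (F ∙ a) ⊔ (F ∙ b) := fun a b =>
    Submodule.mem_sup_right (Submodule.mem_span_singleton_self b)
  have e : ∀ r : F, (y + algebraMap F K r) * v = y * v + r • v := fun r => by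
    rw [Algebra.smul_def]; ring
  have hv : v ∈ (F ∙ (y + algebraMap F K s) * v) ⊔ (F ∙ (y + algebraMap F K t) * v) := by
    have : v = (t - s)⁻¹ • ((y + algebraMap F K t) * v - (y + algebraMap F K s) * v) := by
      rw [e, e, add_sub_add_left_eq_sub, ← sub_smul, smul_smul,
        inv_mul_cancel₀ (sub_ne_zero.mpr hst.symm), one_smul]
    have h5 := Submodule.smul_mem _ (t - s)⁻¹ (sub_mem
      (m2 ((y + algebraMap F K s) * v) ((y + algebraMap F K t) * v))
      (m1 ((y + algebraMap F K s) * v) ((y + algebraMap F K t) * v)))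
    rwa [← this] at h5
  apply le_antisymm
  · rw [sup_le_iff, Submodule.span_singleton_le_iff_mem, Submodule.span_singleton_le_iff_mem]
    refine ⟨hv, ?_⟩
    have h5 := sub_mem (m1 ((y + algebraMap F K s) * v) ((y + algebraMap F K t) * v))
      (Submodule.smul_mem _ s hv)
    rwa [show (y + algebraMap F K s) * v - s • v = y * v by rw [e]; abel] at h5
  · rw [sup_le_iff, Submodule.span_singleton_le_iff_mem, Submodule.span_singleton_le_iff_mem,
      e, e]
    exact ⟨add_mem (m2 _ _) (Submodule.smul_mem _ _ (m1 _ _)),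
      add_mem (m2 _ _) (Submodule.smul_mem _ _ (m1 _ _))⟩

variable [Fintype F] [Finite K]

theorem pigeon {n : ℕ} (hq : n < Fintype.card F) (hc : Nat.card (ℙ F K) = n * Nat.card (AX X))
    (f : F → ℙ F K) : ∃ s t : F, s ≠ t ∧ ∃ b ∈ AX X, b • f s = f t := by
  have h1 := TwoA.card_free (AX_free (X := X))
  rw [hc] at h1
  have h2 := Nat.eq_of_mul_eq_mul_right Nat.card_pos h1
  have := Fintype.ofFinite (Quotient (MulAction.orbitRel (AX X) (ℙ F K)))
  obtain ⟨t, s, hts, e⟩ := Fintype.exists_ne_map_eq_of_card_lt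
    (fun t => (Quotient.mk _ (f t) : Quotient (MulAction.orbitRel (AX X) (ℙ F K))))
    (by rw [← Nat.card_eq_fintype_card, ← h2]; exact hq)
  obtain ⟨b, hb⟩ := Quotient.exact e
  exact ⟨s, t, hts.symm, b, b.2, hb⟩

theorem cnt_psi {n : ℕ} (hq : n < Fintype.card F) (hc : Nat.card (ℙ F K) = n * Nat.card (AX X))
    {Q : ℙ F K → ℙ F K → Prop}
    (hL : ∀ u v u' v', u ≠ v → u' ≠ v' → spn u v = spn u' v' → Q u v → Q u' v')
    {z : ℙ F K} (hz : z ≠ Projectivization.mk F 1 one_ne_zero) :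
    ∃ b ∈ AX X, b ≠ 1 ∧ Nat.card {u // Q u (psi z u)} = Nat.card {u // Q u (b • u)} := by
  have hy : ∀ c : F, z.rep ≠ algebraMap F K c := fun c e => hz (by
    rw [← z.mk_rep, Projectivization.mk_eq_mk_iff']
    exact ⟨c, by rw [e, Algebra.smul_def, mul_one]⟩)
  have h0 : ∀ r : F, z.rep + algebraMap F K r ≠ 0 := fun r e =>
    hy (-r) (by rw [map_neg]; exact eq_neg_of_add_eq_zero_left e)
  obtain ⟨s, t, hst, b, hb, e⟩ := pigeon hq hc fun r => Projectivization.mk F _ (h0 r)
  have hb1 : b ≠ 1 := by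
    rintro rfl
    rw [one_smul, Projectivization.mk_eq_mk_iff'] at e
    obtain ⟨l, hl⟩ := e
    by_cases h1 : l = 1
    · rw [h1, one_smul, add_right_inj] at hl
      exact hst ((algebraMap F K).injective hl).symm
    · refine hy ((l - 1)⁻¹ * (s - l * t)) ?_
      have h2 : algebraMap F K (l - 1) ≠ 0 := by
        rw [map_ne_zero]; exact sub_ne_zero.mpr h1
      rw [Algebra.smul_def] at hl
      rw [map_mul, map_inv₀, eq_inv_mul_iff_mul_eq₀ h2]
      simp only [map_sub, map_mul, map_one]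
      linear_combination hl
  refine ⟨b, hb, hb1, ?_⟩
  obtain ⟨w, -, hw⟩ := mem_AX.mp hb
  have hbw : ∀ x, b • x = pm F K (mulE F K w) x := fun x => by rw [hw]; rfl
  rw [hbw] at e
  obtain ⟨l, hl⟩ := (pm_mk_eq _ _).mp e
  rw [mulE_apply] at hl
  refine Nat.card_congr ((pm F K (mulE F K (Units.mk0 _ (h0 s)))).subtypeEquiv fun u => ?_)
  have n2 := fun e : (pm F K (mulE F K (Units.mk0 _ (h0 s)))) u =
    b • (pm F K (mulE F K (Units.mk0 _ (h0 s)))) u => hb1 (AX_semireg hb e.symm)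
  have n1 : u ≠ psi z u := fun e => by
    obtain ⟨c, hc⟩ := pm_mulE_fix e.symm
    exact hy c hc
  have hs : spn u (psi z u) = spn ((pm F K (mulE F K (Units.mk0 _ (h0 s)))) u)
      (b • (pm F K (mulE F K (Units.mk0 _ (h0 s)))) u) := by
    induction u using Projectivization.ind with
    | h v hv =>
      have e2 : b • (pm F K (mulE F K (Units.mk0 _ (h0 s)))) (Projectivization.mk F v hv) =
          Projectivization.mk F _ (mul_ne_zero (h0 t) hv) := by
        rw [hbw, pm_mulE_mk]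
        refine (pm_mk_eq _ _).mpr ⟨l, ?_⟩
        rw [mulE_apply, Units.val_mk0, ← mul_assoc, hl, smul_mul_assoc]
      rw [e2]
      exact spn_mob hst hv (mul_ne_zero z.rep_nonzero hv) (mul_ne_zero (h0 s) hv) _
  exact ⟨hL _ _ _ _ n1 n2 hs, hL _ _ _ _ n2 n1 hs.symm⟩

theorem dvd_pairs {n : ℕ} (hq : n < Fintype.card F) (hc : Nat.card (ℙ F K) = n * Nat.card (AX X))
    (E1 : ∀ Γ : ℙ F K → ℙ F K → Prop, (∀ (g : GX X) x y, Γ x y → Γ (g • x) (g • y)) →
      ∀ a ∈ AX X, a ≠ 1 → ∀ b ∈ AX X, b ≠ 1 →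
        Nat.card {x // Γ x (a • x)} = Nat.card {x // Γ x (b • x)})
    {a : GX X} (ha : a ∈ AX X) (ha1 : a ≠ 1) {Q : ℙ F K → ℙ F K → Prop}
    (hG : ∀ (g : GX X) x y, Q x y → Q (g • x) (g • y)) (hne : ∀ u, ¬ Q u u)
    (hL : ∀ u v u' v', u ≠ v → u' ≠ v' → spn u v = spn u' v' → Q u v → Q u' v') :
    (Nat.card (ℙ F K) - 1) * Nat.card (AX X) ∣ Nat.card {p : ℙ F K × ℙ F K // Q p.1 p.2} := by
  have := Fintype.ofFinite (ℙ F K)
  have h1 : ∀ u, Nat.card {v // Q u v} = Nat.card {z // Q u (psi z u)} := fun u =>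
    (Nat.card_congr ((psi u).subtypeEquiv fun z => by rw [psi_comm])).symm
  rw [TwoA.card_prod_sub, Finset.sum_congr rfl fun u _ => h1 u,
    TwoA.sum_swap fun u z => Q u (psi z u),
    TwoA.sum_ite_card (fun z => z ≠ Projectivization.mk F 1 one_ne_zero) _
      (Nat.card {x // Q x (a • x)})]
  · refine mul_dvd_mul (dvd_of_eq ?_) (dvd_cnt hG ha)
    classical
    rw [Nat.card_eq_fintype_card, Nat.card_eq_fintype_card, Fintype.card_subtype_compl,
      Fintype.card_subtype_eq]
  · intro z hz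
    obtain ⟨b, hb, hb1, e⟩ := cnt_psi hq hc hL hz
    rw [e, E1 Q hG b hb hb1 a ha ha1]
  · intro z hz
    rw [not_not] at hz
    have : ∀ u, psi z u = u := fun u => by
      rw [psi_comm, hz, psi, pm_mulE_mk]
      conv_rhs => rw [← u.mk_rep]
      congr 1
      simp
    simp only [this]
    have : IsEmpty {u // Q u u} := ⟨fun u => hne _ u.2⟩
    exact Nat.card_of_isEmpty

theorem dvd_orb {n : ℕ} (hq : n < Fintype.card F) (hc : Nat.card (ℙ F K) = n * Nat.card (AX X))
    (E1 : ∀ Γ : ℙ F K → ℙ F K → Prop, (∀ (g : GX X) x y, Γ x y → Γ (g • x) (g • y)) →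
      ∀ a ∈ AX X, a ≠ 1 → ∀ b ∈ AX X, b ≠ 1 →
        Nat.card {x // Γ x (a • x)} = Nat.card {x // Γ x (b • x)})
    {a : GX X} (ha : a ∈ AX X) (ha1 : a ≠ 1) {Γ : ℙ F K → ℙ F K → Prop}
    (hG : ∀ (g : GX X) x y, Γ x y → Γ (g • x) (g • y)) (hne : ∀ u, ¬ Γ u u) :
    (Nat.card (ℙ F K) - 1) * Nat.card (AX X) ∣
      Nat.card {p : ℙ F K × ℙ F K // Γ p.1 p.2} * (Nat.card F * (Nat.card F + 1)) := by
  have := Fintype.ofFinite (ℙ F K)
  let Rel : ℙ F K × ℙ F K → ℙ F K × ℙ F K → Prop := fun p r =>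
    Γ p.1 p.2 ∧ r.1 ≠ r.2 ∧ spn r.1 r.2 ≤ spn p.1 p.2
  have hRel : ∀ (g : GX X) p r, Rel p r → Rel (g • p) (g • r) := fun g p r h =>
    ⟨hG g _ _ h.1, fun e => h.2.1 (MulAction.injective g e), spn_le g h.2.2⟩
  rw [← TwoA.sum_ite_card (fun p : ℙ F K × ℙ F K => Γ p.1 p.2)
    (fun p => Nat.card {r // Rel p r}), TwoA.sum_swap]
  · refine TwoA.dvd_sum_of_fib _ _ fun m hm => ?_
    refine dvd_pairs hq hc E1 ha ha1 (Q := fun u v => Nat.card {p // Rel p (u, v)} = m)
      (fun g x y h => ?_) (fun u h => hm ?_) (fun u v u' v' h1 h2 h3 h => ?_)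
    · rw [← h]
      symm
      refine TwoA.card_inv g _ _ (fun p hp => hRel g p _ hp) fun p hp => ?_
      have := hRel g⁻¹ p _ hp
      simpa only [Prod.smul_mk, inv_smul_smul] using this
    · have : IsEmpty {p // Rel p (u, u)} := ⟨fun p => p.2.2.1 rfl⟩
      rw [← h]
      exact Nat.card_of_isEmpty
    · rw [← h]
      refine Nat.card_congr (Equiv.subtypeEquivRight fun p => ?_)
      simp only [Rel, h3, ne_eq, h1, h2]
  · intro p hp
    have h1 : p.1 ≠ p.2 := fun e => hne p.1 (by rw [← e] at hp; exact hp)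
    rw [← TwoA.card_offDiag _ _ (card_line h1)]
    refine Nat.card_congr (Equiv.subtypeEquivRight fun r => ?_)
    simp only [Rel, hp, true_and]
    rw [show spn r.1 r.2 = r.1.submodule ⊔ r.2.submodule from rfl, sup_le_iff]
  · intro p hp
    have : IsEmpty {r // Rel p r} := ⟨fun r => hp r.2.1⟩
    exact Nat.card_of_isEmpty

theorem card_ne_14 : Fintype.card F ≠ 14 := by
  intro h
  obtain ⟨p, k, hp, -, e⟩ := (isPrimePow_nat_iff _).mp (FiniteField.isPrimePow_card F)
  rw [h] at e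
  have h2 := (Nat.prime_dvd_prime_iff_eq Nat.prime_two hp).mp
    (Nat.prime_two.dvd_of_dvd_pow (e ▸ (by norm_num : 2 ∣ 14)))
  have h7 := (Nat.prime_dvd_prime_iff_eq (by norm_num : Nat.Prime 7) hp).mp
    ((by norm_num : Nat.Prime 7).dvd_of_dvd_pow (e ▸ (by norm_num : 7 ∣ 14)))
  omega

theorem two (hn : (finrank F K).Prime) (h13 : 13 ≤ finrank F K)
    (hd : finrank F K ∣ Fintype.card F - 1)
    (hc : Nat.card (ℙ F K) = finrank F K * Nat.card (AX X))
    (E1 : ∀ Γ : ℙ F K → ℙ F K → Prop, (∀ (g : GX X) x y, Γ x y → Γ (g • x) (g • y)) →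
      ∀ a ∈ AX X, a ≠ 1 → ∀ b ∈ AX X, b ≠ 1 →
        Nat.card {x // Γ x (a • x)} = Nat.card {x // Γ x (b • x)})
    (E2 : ∀ x0 : ℙ F K, ∀ a ∈ AX X, a ≠ 1 →
      ((Nat.card {y // Orb X x0 (a • x0) x0 y} : ℤ) -
        Nat.card {x // Orb X x0 (a • x0) x (a • x)}) ^ 2 ≤
          4 * (finrank F K : ℤ) ^ 4 * Nat.card {y // Orb X x0 (a • x0) x0 y}) :
    ∀ x y x' y' : ℙ F K, x ≠ y → x' ≠ y' → ∃ g : GX X, g • x = x' ∧ g • y = y' := by
  classical
  have := Fintype.ofFinite (ℙ F K)
  obtain ⟨m, hm⟩ : ∃ m, finrank F K = 2 * m + 3 := by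
    rcases hn.eq_two_or_odd' with h | ⟨k, h⟩
    · omega
    · exact ⟨k - 1, by omega⟩
  obtain ⟨hq, hbig⟩ := TwoA.big hm h13 Fintype.one_lt_card hd card_ne_14
  obtain ⟨R, hR, hR2⟩ := TwoA.geom (Fintype.card F) m
  rw [← Nat.card_eq_fintype_card, ← Projectivization.card_of_finrank F K hm,
    Nat.card_eq_fintype_card (α := F)] at hR
  set n := finrank F K
  set q := Fintype.card F with hqd
  set c := Nat.card (AX X) with hcd
  have hbig2 := hbig.trans_le hR2
  have hc0 : 0 < c := Nat.card_pos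
  obtain ⟨a, ha, ha1⟩ : ∃ a ∈ AX X, a ≠ 1 := by
    refine (AX X).bot_or_exists_ne_one.resolve_left fun h => ?_
    rw [h, Subgroup.card_bot] at hcd
    rw [hcd, mul_one, hR] at hc
    have : 1 ≤ R := by omega
    nlinarith
  let x0 : ℙ F K := Projectivization.mk F 1 one_ne_zero
  let Γ := Orb X x0 (a • x0)
  have hG : ∀ (g : GX X) x y, Γ x y → Γ (g • x) (g • y) := fun g x y ⟨h, h1, h2⟩ =>
    ⟨g * h, by rw [mul_smul, h1], by rw [mul_smul, h2]⟩
  have hne : ∀ u, ¬ Γ u u := fun u ⟨h, h1, h2⟩ =>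
    ha1 (AX_semireg ha (MulAction.injective h (h2.trans h1.symm)))
  let O : ℙ F K → Prop := fun x => ∃ g : GX X, g • x0 = x
  obtain ⟨j, hj⟩ : c ∣ Nat.card {x // O x} := TwoA.dvd_free AX_free O fun b x ⟨g, hg⟩ =>
    ⟨b * g, by rw [mul_smul, hg]; rfl⟩
  obtain ⟨e, he⟩ : c ∣ Nat.card {x // Γ x (a • x)} := dvd_cnt hG ha
  set k := Nat.card {y // Γ x0 y} with hk
  have hN : Nat.card {p : ℙ F K × ℙ F K // Γ p.1 p.2} = c * j * k := by
    rw [TwoA.card_prod_sub, TwoA.sum_ite_card O _ k, hj]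
    · rintro x ⟨g, rfl⟩
      exact (TwoA.card_inv g _ _ (fun y hy => hG g _ _ hy) fun y hy => by
        simpa only [inv_smul_smul] using hG g⁻¹ _ _ hy).symm
    · intro x hx
      have : IsEmpty {y // Γ x y} := ⟨fun ⟨y, g, h, _⟩ => hx ⟨g, h⟩⟩
      exact Nat.card_of_isEmpty
  obtain ⟨M, hM⟩ := dvd_orb hq hc E1 ha ha1 hG hne
  rw [hN, hR, Nat.add_sub_cancel, Nat.card_eq_fintype_card (α := F), ← hqd, ← hcd] at hM
  have hjk : j * k = R * M := by
    apply Nat.eq_of_mul_eq_mul_left (show 0 < c * (q * (q + 1)) by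
      have : 0 < q := by omega
      positivity)
    linear_combination hM
  have he1 : 1 ≤ e := by
    have : 0 < Nat.card {x // Γ x (a • x)} :=
      Nat.card_pos_iff.mpr ⟨⟨⟨x0, 1, one_smul _ _, one_smul _ _⟩⟩, inferInstance⟩
    rw [he] at this
    exact Nat.pos_of_mul_pos_left this
  have hej : e ≤ j := by
    have : Nat.card {x // Γ x (a • x)} ≤ Nat.card {x // O x} :=
      Nat.card_le_card_of_injective (fun x => ⟨x.1, x.2.choose, x.2.choose_spec.1⟩)
        fun x y h => Subtype.ext (Subtype.ext_iff.mp h :)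
    rw [he, hj] at this
    exact Nat.le_of_mul_le_mul_left this hc0
  have hjn : j ≤ n := by
    have : Nat.card {x // O x} ≤ Nat.card (ℙ F K) := Finite.card_subtype_le _
    rw [hj, hc, mul_comm n] at this
    exact Nat.le_of_mul_le_mul_left this hc0
  have hkP : k ≤ n * c := hc ▸ Finite.card_subtype_le _
  have hE := E2 x0 a ha ha1
  change ((k : ℤ) - Nat.card {x // Γ x (a • x)}) ^ 2 ≤ 4 * (n : ℤ) ^ 4 * k at hE
  rw [he, mul_comm c e, Nat.cast_mul] at hE
  obtain ⟨h1, h2⟩ := TwoA.arith (n := n) (j := j) (e := e) (k := k) (c := c) (R := R) (q := q)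
    (M := M) (by exact_mod_cast hc.symm.trans hR) (by exact_mod_cast hjk) (by exact_mod_cast he1)
    (by exact_mod_cast hej) (by exact_mod_cast hjn) (by exact_mod_cast hkP)
    (by have : 1 < q := Fintype.one_lt_card; exact_mod_cast this) hE (by exact_mod_cast hbig2)
  have h3 : j = n := by
    have : e = n := by exact_mod_cast h1
    omega
  have h4 : k + 1 = Nat.card (ℙ F K) := by rw [hc]; exact_mod_cast h2
  have hO : ∀ x, O x := by
    rw [h3, mul_comm, ← hc] at hj
    have h5 : ({x | O x} : Set (ℙ F K)) = Set.univ :=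
      Set.eq_of_subset_of_ncard_le (Set.subset_univ _) (by rw [Set.ncard_univ]; exact hj.ge)
    exact fun x => (Set.eq_univ_iff_forall.mp h5) x
  have hall : ∀ y, y ≠ x0 → Γ x0 y := by
    have h5 : ({y | Γ x0 y} : Set (ℙ F K)) = {x0}ᶜ := by
      refine Set.eq_of_subset_of_ncard_le (fun y hy e => hne x0 ?_) ?_
      · rw [Set.mem_singleton_iff.mp e] at hy; exact hy
      · have h6 := Set.ncard_add_ncard_compl ({x0} : Set (ℙ F K))
        rw [Set.ncard_singleton] at h6
        change _ ≤ k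
        omega
    intro y hy
    have : y ∈ ({x0}ᶜ : Set (ℙ F K)) := hy
    rw [← h5] at this
    exact this
  have hΓ : ∀ x y, x ≠ y → Γ x y := fun x y hxy => by
    obtain ⟨g, rfl⟩ := hO x
    have := hG g _ _ (hall (g⁻¹ • y) fun e => hxy (by rw [← e, smul_inv_smul]))
    rwa [smul_inv_smul] at this
  intro x y x' y' h h'
  obtain ⟨g, g1, g2⟩ := hΓ x y h
  obtain ⟨g', g1', g2'⟩ := hΓ x' y' h'
  exact ⟨g' * g⁻¹, by rw [mul_smul, ← g1, inv_smul_smul, g1'],
    by rw [mul_smul, ← g2, inv_smul_smul, g2']⟩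

end Cfsg.Agent.SG
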