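import Mathlib
import Cfsg.Agent.SG.CA

/-!
Numerical data of the Singer cycle: fixed points and sizes.
-/

set_option autoImplicit false

namespace Cfsg.Agent.SG

open Module Cfsg.Agent.H7 Cfsg.Agent.H3.Ext
open scoped LinearAlgebra.Projectivization

variable {F K : Type*} [Field F] [Field K] [Algebra F K] [Fintype F] [Finite K]

theorem det_algEquiv (ho : Odd (finrank F K)) (σ : K ≃ₐ[F] K) :
    LinearMap.det (σ.toLinearEquiv : K →ₗ[F] K) = 1 := by
  classical
  let b := IsGalois.normalBasis F K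
  have h1 := b.det_comp (σ.toLinearEquiv : K →ₗ[F] K) b
  have h2 : (σ.toLinearEquiv : K →ₗ[F] K) ∘ b = b ∘ Equiv.mulLeft σ := by
    funext τ
    simp only [Function.comp, Equiv.coe_mulLeft, b]
    rw [IsGalois.normalBasis_apply τ, IsGalois.normalBasis_apply (σ * τ)]
    rfl
  have h3 : Equiv.Perm.sign (Equiv.mulLeft σ) = 1 := by
    have h4 : Equiv.Perm.sign (Equiv.mulLeft σ) ^ finrank F K = 1 := by
      rw [← map_pow, Equiv.pow_mulLeft, ← card_gal, pow_card_eq_one']; simp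
    rcases Int.units_eq_one_or (Equiv.Perm.sign (Equiv.mulLeft σ)) with h | h
    · exact h
    · rw [h, ho.neg_one_pow] at h4; exact absurd h4 (by decide)
  rw [h2, AlternatingMap.map_perm, h3, b.det_self, one_smul, mul_one] at h1
  exact h1.symm

variable {X : Subgroup (K ≃ₗ[F] K)}

theorem norm_orbit (hn : (finrank F K).Prime) (h3 : 3 ≤ finrank F K) (hS : X ≤ SLV F K)
    (hX : ∀ g : K ≃ₗ[F] K, Semi K g → g ∈ SLV F K → g ∈ X) :
    ∀ z ∈ Subgroup.normalizer (AX X : Set (GX X)), ∀ ω : ℙ F K, ∃ a ∈ AX X, z • ω = a • ω := by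
  rintro ⟨_, g, hg, rfl⟩ hz ω
  obtain ⟨σ, hσ⟩ := semi_iff.mp ((mem_normalizer_AX hn h3 hX hg).mp hz)
  have h1 : g 1 ≠ 0 := by simp
  have h2 : Algebra.norm F (g 1) = 1 := by
    have e : g = mulE F K (Units.mk0 _ h1) * σ.toLinearEquiv := by ext x; rw [hσ x]; rfl
    have := mem_SLV.mp (hS hg)
    rw [e, det_algEquiv_mul, det_algEquiv (hn.odd_of_ne_two (by omega)), mul_one] at this
    exact this
  induction ω using Projectivization.ind with
  | h v hv =>
  have h4 : g v * v⁻¹ ≠ 0 := by simp [hv]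
  have h5 : Units.mk0 _ h4 ∈ C1 F K := by
    have h6 : Algebra.norm F v * Algebra.norm F v⁻¹ = 1 := by
      rw [← map_mul, mul_inv_cancel₀ hv, map_one]
    rw [mem_C1, Units.val_mk0, hσ v, map_mul, map_mul, h2, one_mul,
      Algebra.norm_eq_of_algEquiv σ, h6]
  refine ⟨⟨_, _, hX _ (semi_mulE _) (mulE_mem_SLV.mpr h5), rfl⟩, mem_AX.mpr ⟨_, h5, rfl⟩, ?_⟩
  change pm F K g _ = pm F K _ _
  rw [pm_mk, pm_mk]
  congr 1
  rw [mulE_apply, Units.val_mk0, inv_mul_cancel_right₀ hv]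

theorem fix_le {g : K ≃ₗ[F] K} (hg : pm F K g ≠ 1) :
    Nat.card {x : ℙ F K // pm F K g x = x} * (Nat.card F - 1) ≤
      Nat.card F ^ (finrank F K - 1) + Nat.card F ^ 2 := by
  classical
  obtain ⟨x, hx⟩ : ∃ x, pm F K g x ≠ x := by
    by_contra! h
    exact hg (Equiv.ext h)
  induction x using Projectivization.ind with
  | h z hz =>
  have hz' : ∀ a : F, g z ≠ a • z := fun a e => hx ((pm_mk_eq hz hz).mpr ⟨a, e⟩)
  have hrep : ∀ x : {x : ℙ F K // pm F K g x = x}, ∃ a : F, g x.1.rep = a • x.1.rep := fun x =>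
    (pm_mk_eq x.1.rep_nonzero x.1.rep_nonzero).mp (by rw [Projectivization.mk_rep]; exact x.2)
  let E := {v : K // ∃ a : F, g v = a • v}
  have : Finite (K ⧸ (F ∙ z)) := Finite.of_surjective _ (Submodule.Quotient.mk_surjective _)
  have h1 : Nat.card ({x : ℙ F K // pm F K g x = x} × Fˣ) ≤ Nat.card E := by
    refine Nat.card_le_card_of_injective (fun p => (⟨(p.2 : F) • p.1.1.rep, ?_⟩ : E)) ?_
    · obtain ⟨a, ha⟩ := hrep p.1
      exact ⟨a, by rw [map_smul, ha, smul_comm]⟩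
    · rintro ⟨x, a⟩ ⟨y, b⟩ e
      have e' : (a : F) • x.1.rep = (b : F) • y.1.rep := congrArg Subtype.val e
      have hxy : x = y := by
        apply Subtype.ext
        rw [← Projectivization.mk_rep x.1, ← Projectivization.mk_rep y.1,
          Projectivization.mk_eq_mk_iff']
        exact ⟨(a : F)⁻¹ * b, by rw [mul_smul, ← e', inv_smul_smul₀ a.ne_zero]⟩
      subst hxy
      rw [Units.ext (smul_left_injective F x.1.rep_nonzero e')]
  have h2 : Nat.card E ≤ Nat.card ((K ⧸ (F ∙ z)) ⊕ (F × F)) := by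
    refine Nat.card_le_card_of_injective (fun v =>
      if h : ∃ p : F × F, v.1 = p.1 • z + p.2 • g z then Sum.inr h.choose
      else Sum.inl (Submodule.Quotient.mk v.1)) ?_
    rintro ⟨v, a, ha⟩ ⟨w, b, hb⟩ e
    apply Subtype.ext
    simp only at e ⊢
    split_ifs at e with h h' h'
    · rw [h.choose_spec, h'.choose_spec, Sum.inr.inj e]
    · obtain ⟨t, ht⟩ := Submodule.mem_span_singleton.mp
        ((Submodule.Quotient.eq _).mp (Sum.inl.inj e))
      by_contra hne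
      have ht0 : t ≠ 0 := fun e => hne (sub_eq_zero.mp (by rw [← ht, e, zero_smul]))
      have h3 := congrArg g ht
      rw [map_smul, map_sub, ha, hb] at h3
      have hv : v = t • z + w := by rw [ht]; abel
      by_cases hab : a = b
      · apply hz' a
        rw [← hab, ← smul_sub, ← ht, smul_comm] at h3
        exact smul_right_injective K ht0 h3
      · apply h'
        have hab' : a - b ≠ 0 := sub_ne_zero.mpr hab
        refine ⟨((a - b)⁻¹ * (-(a * t)), (a - b)⁻¹ * t), ?_⟩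
        simp only [mul_smul, ← smul_add]
        rw [eq_inv_smul_iff₀ hab', h3, hv]
        module
  have h3 : Nat.card (K ⧸ (F ∙ z)) = Nat.card F ^ (finrank F K - 1) := by
    have := Submodule.finrank_quotient_add_finrank (F ∙ z)
    rw [finrank_span_singleton hz] at this
    rw [Module.natCard_eq_pow_finrank (K := F), ← this, add_tsub_cancel_right]
  rw [Nat.card_prod, Nat.card_units] at h1
  rw [Nat.card_sum, h3, Nat.card_prod, ← pow_two] at h2
  exact h1.trans h2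

theorem two_pow_bd {n : ℕ} (h : 13 ≤ n) : (n + 6) * n + 1 ≤ 2 ^ (n - 1) := by
  induction n, h using Nat.le_induction with
  | base => norm_num
  | succ n hn ih =>
    obtain ⟨m, rfl⟩ : ∃ m, n = m + 1 := ⟨n - 1, by omega⟩
    simp only [add_tsub_cancel_right] at ih ⊢
    rw [pow_succ]; nlinarith

theorem num {n p j c f : ℕ} (h13 : 13 ≤ n) (hp : 1 ≤ p) (hj : j = 1 ∨ j = n ∧ n ∣ p)
    (hc : j * c * p + 1 = (p + 1) ^ n) (hf : f * p ≤ (p + 1) ^ (n - 1) + (p + 1) ^ 2) :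
    (n + 2 * j + 4) * n + 1 ≤ c ∧ j + f + 1 < c ∧ j ^ 2 * (n + 1) ≤ 2 * n ^ 4 := by
  have h4 : (p + 1) ^ 4 ≤ (p + 1) ^ (n - 1) := Nat.pow_le_pow_right (by omega) (by omega)
  have h2 : 2 ^ (n - 1) ≤ (p + 1) ^ (n - 1) := Nat.pow_le_pow_left (by omega) _
  have h5 := two_pow_bd h13
  have e : (p + 1) ^ n = (p + 1) * (p + 1) ^ (n - 1) := by
    rw [← pow_succ']; congr 1; omega
  rw [e] at hc
  generalize (p + 1) ^ (n - 1) = Q at *
  have hn4 : n ^ 2 * (n + 1) ≤ 2 * n ^ 4 := by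
    calc n ^ 2 * (n + 1) ≤ n ^ 2 * (2 * n ^ 2) := Nat.mul_le_mul_left _ (by nlinarith)
      _ = _ := by ring
  rcases hj with rfl | ⟨rfl, hd⟩
  · have h6 : Q ≤ c := Nat.le_of_mul_le_mul_right (by nlinarith) (by omega : 0 < p)
    refine ⟨h5.trans (h2.trans h6), Nat.lt_of_mul_lt_mul_right (a := p) ?_, by nlinarith⟩
    have : (p + 1) ^ 2 + 2 * p + 1 < (p + 1) ^ 4 := by nlinarith [Nat.zero_le (p ^ 3), Nat.zero_le (p ^ 4)]
    nlinarith
  · have h6 : j ≤ p := Nat.le_of_dvd (by omega) hd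
    have h7 : j * (j + 1) * p + j * (p + 1) ^ 2 + 1 < (p + 1) ^ 4 := by
      have a1 : j * (j + 1) * p ≤ p * (p + 1) * p :=
        Nat.mul_le_mul_right _ (Nat.mul_le_mul h6 (by omega))
      have a2 : j * (p + 1) ^ 2 ≤ p * (p + 1) ^ 2 := Nat.mul_le_mul_right _ h6
      nlinarith [Nat.zero_le (p ^ 3), Nat.zero_le (p ^ 4)]
    have h8 : j * Q ≤ p * Q := Nat.mul_le_mul_right _ h6
    have h9 : j * (f * p) ≤ j * (Q + (p + 1) ^ 2) := Nat.mul_le_mul_left _ hf
    refine ⟨?_, Nat.lt_of_mul_lt_mul_right (a := j * p) (by nlinarith), hn4⟩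
    have h10 : Q ≤ c * p := Nat.le_of_mul_le_mul_left (by nlinarith) (by omega : 0 < j)
    have h11 : (p + 1) ^ 3 ≤ c := Nat.le_of_mul_le_mul_right (by
      calc (p + 1) ^ 3 * p ≤ (p + 1) ^ 3 * (p + 1) := Nat.mul_le_mul_left _ (by omega)
        _ = (p + 1) ^ 4 := by ring
        _ ≤ c * p := h4.trans h10) (by omega : 0 < p)
    have h12 : (j + 1) ^ 3 ≤ (p + 1) ^ 3 := Nat.pow_le_pow_left (by omega) _
    nlinarith [Nat.zero_le (j ^ 3)]

theorem data (hn : (finrank F K).Prime) (h13 : 13 ≤ finrank F K)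
    (hX : ∀ g : K ≃ₗ[F] K, Semi K g → g ∈ SLV F K → g ∈ X) :
    ∃ j f : ℕ, (j = 1 ∨ j = finrank F K ∧ finrank F K ∣ Fintype.card F - 1) ∧
      Nat.card (ℙ F K) = j * Nat.card (AX X) ∧
      (∀ g : GX X, g ≠ 1 → Nat.card (MulAction.fixedBy (ℙ F K) g) ≤ f) ∧
      (finrank F K + 2 * j + 4) * finrank F K + 1 ≤ Nat.card (AX X) ∧
      j + f + 1 < Nat.card (AX X) ∧ j ^ 2 * (finrank F K + 1) ≤ 2 * finrank F K ^ 4 := by
  obtain ⟨j, hj, hc⟩ := card_AX hn hX
  have hq : 1 < Nat.card F := Finite.one_lt_card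
  obtain ⟨p, hp⟩ : ∃ p, Nat.card F = p + 1 := ⟨Nat.card F - 1, by omega⟩
  have h1 := Projectivization.card' F K
  rw [Module.natCard_eq_pow_finrank (K := F), hc, hp, add_tsub_cancel_right] at h1
  refine ⟨j, ((p + 1) ^ (finrank F K - 1) + (p + 1) ^ 2) / p, hj, hc, ?_,
    num h13 (by omega) ?_ h1.symm (Nat.div_mul_le_self _ _)⟩
  · rintro ⟨_, g, hg, rfl⟩ h
    have := fix_le (g := g) fun e => h (Subtype.ext e)
    rw [hp, add_tsub_cancel_right] at this
    exact (Nat.le_div_iff_mul_le (by omega)).mpr this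
  · rwa [← Nat.card_eq_fintype_card, hp, add_tsub_cancel_right] at hj

end Cfsg.Agent.SG
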