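import Mathlib
import Cfsg.Agent.SG.Hy
import Cfsg.Agent.SG.Ex
import Cfsg.Agent.SG.Two
import Cfsg.Agent.H8.Anti
import Cfsg.Agent.Sg.Defs

/-!
An overgroup of the normaliser of a Singer cycle is two-transitive on points.
-/

set_option autoImplicit false

namespace Cfsg.Agent.SG

open Module Cfsg.Agent.H7 Cfsg.Agent.H3.Ext
open scoped LinearAlgebra.Projectivization

variable {F K : Type*} [Field F] [Field K] [Algebra F K] [Fintype F] [Finite K]

theorem t2 {X : Subgroup (K ≃ₗ[F] K)} (hn : (finrank F K).Prime) (h13 : 13 ≤ finrank F K)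
    (hS : X ≤ SLV F K) (hX : ∀ g : K ≃ₗ[F] K, Semi K g → g ∈ SLV F K → g ∈ X)
    (hg : ∃ g ∈ X, ¬ Semi K g) : H8.T2tv.T2 X := by
  obtain ⟨j, f, hj, hc, hf, b1, b2, b3⟩ := data hn h13 hX
  have h3 : 3 ≤ finrank F K := by omega
  have hy : Ex.Hy (AX X) (ℙ F K) (finrank F K) j f :=
    ⟨isCA_AX hn h3 hS hX, relIndex_AX hn h3 hS hX, fun a ha ha1 ω e => ha1 (AX_semireg ha e),
      hc, hf, b1, b2, not_normal_AX hn h3 hX hg⟩
  refine t2_of ?_
  rcases hj with rfl | ⟨rfl, hd⟩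
  · exact fun x y x' y' h h' => Ex.two hy x y x' y' h h'
  · have hΓ : ∀ (x0 y0 : ℙ F K) (g : GX X) x y, Orb X x0 y0 x y → Orb X x0 y0 (g • x) (g • y) :=
      fun x0 y0 g x y ⟨k, h1, h2⟩ => ⟨g * k, by rw [mul_smul, h1], by rw [mul_smul, h2]⟩
    refine two hn h13 hd hc (fun Γ hΓ a ha ha1 b hb hb1 => Ex.E1 hy hΓ ha ha1 hb hb1)
      fun x0 a ha ha1 => ?_
    have := Ex.E2 hy (hΓ x0 (a • x0)) (norm_orbit hn h3 hS hX) x0
      (fun x y ⟨k, h1, h2⟩ => ⟨⟨k, h1⟩, ⟨k * a, by simp only [mul_smul, h2]⟩⟩) ha ha1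
    refine this.trans (mul_le_mul_of_nonneg_right ?_ (by positivity))
    have b4 : ((finrank F K : ℤ)) ^ 2 * (finrank F K + 1) ≤ 2 * (finrank F K : ℤ) ^ 4 := by
      exact_mod_cast b3
    linarith

end Cfsg.Agent.SG

namespace Cfsg.Agent.Sg

open Module Submodule Cfsg.Agent.H7 Cfsg.Agent.H3.Ext Cfsg.Agent.SG

variable {F G K : Type*} [Field F] [Fintype F] [Group G] [Field K] [Fintype K] [Algebra F K]

/-- The elements of determinant one induced by a representation. -/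
def pgX (σ : Representation F G K) : Subgroup (K ≃ₗ[F] K) where
  carrier := {u | u ∈ SLV F K ∧ ∃ g, ∀ v, σ g v = u v}
  one_mem' := ⟨one_mem _, 1, by simp⟩
  mul_mem' := fun ⟨h1, g, hg⟩ ⟨h2, k, hk⟩ => ⟨mul_mem h1 h2, g * k, fun v => by simp [hg, hk]⟩
  inv_mem' := fun {u} ⟨h1, g, hg⟩ => ⟨inv_mem h1, g⁻¹, fun v => u.injective (by
    rw [← hg, ← Module.End.mul_apply, ← map_mul, mul_inv_cancel, map_one]; simp)⟩

theorem pgT {σ : Representation F G K} {n : ℕ} (hn : finrank F K = n) (hp : n.Prime)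
    (h13 : 13 ≤ n) (hsc : Sc σ) (hS : Sing σ (LinearEquiv.refl F K))
    (hφ : ∃ g, ∀ v, σ g v = v ^ Fintype.card F)
    (hdet : ∀ g, ∃ a : F, LinearMap.det (σ g) = a ^ n) : NormK σ ∨ T2 σ := by
  subst hn
  by_cases hg : ∃ g ∈ pgX σ, ¬ Semi K g
  · right
    have h := t2 (X := pgX σ) hp h13 (fun _ h => h.1) (fun g hg hs => ⟨hs, ?_⟩) hg
    · intro x y x' y' h1 h2
      obtain ⟨g, ⟨-, k, hk⟩, a, b, ha, hb⟩ := h x y x' y' h1.1 h1.2 h2.1 h2.2
      have ha0 : a ≠ 0 := fun e => h1.1 (by simpa [e] using ha)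
      obtain ⟨s, hs⟩ := hsc a⁻¹ (inv_ne_zero ha0)
      refine ⟨s * k, by simp [hk, hs, ha, ha0], ?_⟩
      simp only [map_mul, Module.End.mul_apply, hk, hs, hb]
      exact smul_mem _ _ (smul_mem _ _ (mem_span_singleton_self _))
    · obtain ⟨τ, hτ⟩ := semi_iff.mp hg
      have h1 : g 1 ≠ 0 := by simp
      have h2 : Algebra.norm F (g 1) = 1 := by
        have e : g = mulE F K (Units.mk0 _ h1) * τ.toLinearEquiv := by ext x; rw [hτ x]; rfl
        have := mem_SLV.mp hs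
        rw [e, det_algEquiv_mul, det_algEquiv (hp.odd_of_ne_two (by omega)), mul_one] at this
        exact this
      obtain ⟨s, hs'⟩ := hS _ h2
      obtain ⟨φ, hφ⟩ := hφ
      obtain ⟨i, hi⟩ := (FiniteField.bijective_frobeniusAlgEquivOfAlgebraic_pow F K).2 τ
      refine ⟨s * φ ^ (i : ℕ), fun v => ?_⟩
      have h4 : ∀ (i : ℕ) v, σ (φ ^ i) v =
          (FiniteField.frobeniusAlgEquivOfAlgebraic F K ^ i) v := fun i => by
        induction i with
        | zero => simp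
        | succ i ih => intro v; rw [pow_succ', pow_succ', map_mul, Module.End.mul_apply, ih, hφ]; rfl
      rw [hτ v, map_mul, Module.End.mul_apply, h4, ← hi]
      exact hs' _
  · left
    push Not at hg
    intro g k
    obtain ⟨a, ha⟩ := hdet g
    let u : K ≃ₗ[F] K := LinearEquiv.ofLinear (σ g) (σ g⁻¹)
      (by rw [← Module.End.mul_eq_comp, ← map_mul]; simp; rfl)
      (by rw [← Module.End.mul_eq_comp, ← map_mul]; simp; rfl)
    have ha0 : a ≠ 0 := fun e => (LinearEquiv.isUnit_det' u).ne_zero (by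
      rw [e, zero_pow hp.ne_zero] at ha; exact ha)
    obtain ⟨s, hs⟩ := hsc a⁻¹ (inv_ne_zero ha0)
    let w : K ≃ₗ[F] K := u.trans (LinearEquiv.smulOfNeZero F K a⁻¹ (inv_ne_zero ha0))
    have hw : ∀ v, w v = a⁻¹ • σ g v := fun v => rfl
    obtain ⟨m, hm⟩ := hg w ⟨by
      rw [mem_SLV, show (w : K →ₗ[F] K) = a⁻¹ • σ g from LinearMap.ext hw, LinearMap.det_smul, ha,
        ← mul_pow, inv_mul_cancel₀ ha0, one_pow], s * g, fun v => by simp [hw, hs]⟩ k
    refine ⟨m, fun v => smul_right_injective K (inv_ne_zero ha0) ?_⟩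
    have := hm v
    simpa only [hw, smul_eq_mul, mul_smul_comm] using this

end Cfsg.Agent.Sg
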