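import Mathlib

/-! A degree argument by finite differences. -/

set_option autoImplicit false

namespace Cfsg.Agent.SG.Deg

open Polynomial

section
variable {R : Type*} [Field R] {A : Type*} [AddCommGroup A]

/-- All `D`-fold differences in directions from `H` vanish. -/
def Z (H : Set A) : ℕ → (A → R) → Prop
  | 0, f => f = 0
  | D + 1, f => ∀ h ∈ H, Z H D (fun x => f (x + h) - f x)

theorem Z_zero (H : Set A) : ∀ D, Z H D (0 : A → R)
  | 0 => rfl
  | D + 1 => fun h _ => by
    have : (fun x => (0 : A → R) (x + h) - (0 : A → R) x) = 0 := by ext; simp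
    rw [this]; exact Z_zero H D

theorem Z_add {H : Set A} : ∀ {D} {f g : A → R}, Z H D f → Z H D g → Z H D (f + g)
  | 0, f, g, hf, hg => by
    have hf' : f = 0 := hf
    have hg' : g = 0 := hg
    show f + g = 0
    rw [hf', hg', add_zero]
  | D + 1, f, g, hf, hg => fun h hh => by
    have := Z_add (hf h hh) (hg h hh)
    convert this using 1
    ext x; simp only [Pi.add_apply]; ring

theorem Z_neg {H : Set A} : ∀ {D} {f : A → R}, Z H D f → Z H D (-f)
  | 0, f, hf => by
    have hf' : f = 0 := hf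
    show -f = 0
    rw [hf', neg_zero]
  | D + 1, f, hf => fun h hh => by
    have := Z_neg (hf h hh)
    convert this using 1
    ext x; simp only [Pi.neg_apply]; ring

theorem Z_shift {H : Set A} (a : A) : ∀ {D} {f : A → R}, Z H D f → Z H D (fun x => f (x + a))
  | 0, f, hf => by
    have hf' : f = 0 := hf
    subst hf'; rfl
  | D + 1, f, hf => fun h hh => by
    have := Z_shift a (hf h hh)
    convert this using 2 with x
    rw [add_right_comm]

theorem Z_delta {H : Set A} (a : A) {D} {f : A → R} (hf : Z H D f) : Z H D (fun x => f (x + a) - f x) := by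
  have := Z_add (Z_shift a hf) (Z_neg hf)
  convert this using 1
  ext x; simp [sub_eq_add_neg]

theorem Z_succ {H : Set A} {D} {f : A → R} (hf : Z H D f) : Z H (D + 1) f := fun h _ => Z_delta h hf

theorem Z_le {H : Set A} {D D'} {f : A → R} (hf : Z H D f) (h : D ≤ D') : Z H D' f := by
  induction h with
  | refl => exact hf
  | step _ ih => exact Z_succ ih

theorem Z_plus {H₁ H₂ H : Set A} (hH : ∀ h ∈ H, ∃ h₁ ∈ H₁, ∃ h₂ ∈ H₂, h = h₁ + h₂) :
    ∀ {D a b} {f : A → R}, Z H₁ a f → Z H₂ b f → a + b ≤ D + 1 → Z H D f := by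
  intro D
  induction D with
  | zero =>
    intro a b f h1 h2 h
    rcases a with _ | a
    · exact h1
    · obtain rfl : b = 0 := by omega
      exact h2
  | succ D ih =>
    intro a b f h1 h2 h
    rcases a with _ | a
    · have : f = 0 := h1
      subst this; exact Z_zero _ _
    rcases b with _ | b
    · have : f = 0 := h2
      subst this; exact Z_zero _ _
    intro k hk
    obtain ⟨h₁, m1, h₂, m2, rfl⟩ := hH k hk
    have e1 := ih (h1 h₁ m1) (Z_delta h₁ h2) (by omega)
    have e2 := ih (Z_delta h₂ h1) (h2 h₂ m2) (by omega)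
    have := Z_add (Z_shift h₂ e1) e2
    convert this using 1
    ext x
    simp only [Pi.add_apply]
    rw [show x + (h₁ + h₂) = x + h₂ + h₁ by abel]; ring

theorem Z_comp {B : Type*} [AddCommGroup B] (φ : B →+ A) {H : Set A} {H' : Set B} (hH : ∀ h ∈ H', φ h ∈ H) :
    ∀ {D} {f : A → R}, Z H D f → Z H' D (fun x => f (φ x))
  | 0, f, hf => by
    have hf' : f = 0 := hf
    subst hf'; rfl
  | D + 1, f, hf => fun h hh => by
    have := Z_comp φ hH (hf _ (hH h hh))
    convert this using 2 with x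
    simp only [map_add]

theorem Z_part {B : Type*} [AddCommGroup B] (φ : B →+ A) :
    ∀ {D} {f : A → R}, (∀ a, Z Set.univ D (fun y => f (a + φ y))) → Z (Set.range φ) D f
  | 0, f, hf => by
    funext a
    have : (fun y => f (a + φ y)) = 0 := hf a
    simpa using congrFun this 0
  | D + 1, f, hf => by
    rintro _ ⟨h, rfl⟩
    refine Z_part φ fun a => ?_
    have := hf a h trivial
    convert this using 2 with y
    simp only [map_add, add_assoc]

/-- Translation operator. -/
def tr (h : A) : Module.End R (A → R) := LinearMap.funLeft R R (· + h)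

theorem tr_pow (h : A) (j : ℕ) (f : A → R) (x : A) : ((tr h : Module.End R (A → R)) ^ j) f x = f (x + j • h) := by
  induction j generalizing f with
  | zero => simp
  | succ j ih =>
    rw [pow_succ, Module.End.mul_apply, ih]
    simp [tr, succ_nsmul, add_assoc]

theorem Z_iter {H : Set A} {h : A} (hh : h ∈ H) {D : ℕ} :
    ∀ (j : ℕ) {f : A → R}, Z H (D + j) f → Z H D (((tr h - 1 : Module.End R (A → R)) ^ j) f)
  | 0, f, hf => by simpa using hf
  | j + 1, f, hf => by
    rw [pow_succ, Module.End.mul_apply]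
    exact Z_iter hh j (hf h hh)

theorem Z_sum {H : Set A} {D} {ι : Type*} (s : Finset ι) (f : ι → A → R) (h : ∀ i ∈ s, Z H D (f i)) :
    Z H D (∑ i ∈ s, f i) := by
  classical
  induction s using Finset.induction_on with
  | empty => simpa using Z_zero H D
  | insert i s hi ih =>
    rw [Finset.sum_insert hi]
    exact Z_add (h i (by simp)) (ih fun j hj => h j (by simp [hj]))

theorem Z_cyc (e : A) : ∀ (D : ℕ) {f : A → R}, ((tr e - 1 : Module.End R (A → R)) ^ D) f = 0 →
    Z (Set.range fun j : ℕ => j • e) D f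
  | 0, f, hf => by
    show f = 0
    simpa using hf
  | D + 1, f, hf => by
    rintro _ ⟨j, rfl⟩
    rw [pow_succ, Module.End.mul_apply] at hf
    have h1 := Z_cyc e D hf
    have h2 := Z_sum (Finset.range j) _ fun i _ => Z_shift (i • e) h1
    convert h2 using 1
    ext x
    have := Finset.sum_range_sub (fun i => f (x + i • e)) j
    simp only [zero_smul, add_zero] at this
    rw [Finset.sum_apply, ← this]
    refine Finset.sum_congr rfl fun i _ => ?_
    simp [tr, succ_nsmul, add_assoc]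

variable (p : ℕ) [hp : Fact p.Prime] [CharP R p]

theorem poly1 : (X - 1 : R[X]) ^ p = X ^ p - 1 := by
  rw [sub_pow_char, one_pow]

theorem poly2 : (X - 1 : R[X]) ^ (p - 1) = ∑ j ∈ Finset.range p, X ^ j := by
  have h0 : (X - 1 : R[X]) ≠ 0 := by simpa using X_sub_C_ne_zero (1 : R)
  apply mul_left_cancel₀ h0
  rw [mul_geom_sum, ← pow_succ', Nat.sub_add_cancel hp.out.one_le, poly1]

theorem op1 (e : A) : (tr e - 1 : Module.End R (A → R)) ^ p = tr e ^ p - 1 := by
  simpa using congrArg (aeval (tr e : Module.End R (A → R))) (poly1 (R := R) p)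

theorem op2 (e : A) : (tr e - 1 : Module.End R (A → R)) ^ (p - 1) = ∑ j ∈ Finset.range p, tr e ^ j := by
  simpa [map_sum] using congrArg (aeval (tr e : Module.End R (A → R))) (poly2 (R := R) p)

theorem ind_one (f : ZMod p → R) : Z Set.univ p f := by
  have h : ((tr (1 : ZMod p) - 1 : Module.End R (ZMod p → R)) ^ p) f = 0 := by
    rw [op1]; ext x; simp [tr_pow]
  have := Z_cyc _ _ h
  convert this using 1
  ext x
  simp only [Set.mem_univ, Set.mem_range, true_iff]
  exact ⟨x.val, by simp⟩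

theorem ind_pi : ∀ (m : ℕ) (f : (Fin m → ZMod p) → R), Z Set.univ (m * (p - 1) + 1) f
  | 0, f => by
    rw [zero_mul]
    intro h _
    funext x
    simp [Subsingleton.elim (x + h) x]
  | m + 1, f => by
    let e := (Fin.consLinearEquiv (ZMod p) (fun _ : Fin (m + 1) => ZMod p)).toAddEquiv
    let φ₁ := e.toAddMonoidHom.comp (AddMonoidHom.inl _ _)
    let φ₂ := e.toAddMonoidHom.comp (AddMonoidHom.inr _ _)
    have h1 : Z (Set.range φ₁) p f := Z_part φ₁ fun a => ind_one p _
    have h2 : Z (Set.range φ₂) (m * (p - 1) + 1) f := Z_part φ₂ fun a => ind_pi m _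
    refine Z_plus (H₁ := Set.range φ₁) (H₂ := Set.range φ₂)
      (fun h _ => ⟨_, ⟨(e.symm h).1, rfl⟩, _, ⟨(e.symm h).2, rfl⟩, ?_⟩) h1 h2 ?_
    · simp only [φ₁, φ₂, AddMonoidHom.comp_apply, AddEquiv.coe_toAddMonoidHom, ← map_add]
      simp
    · have := hp.out.one_le
      rw [add_mul]; omega

theorem sum_pi : ∀ (m : ℕ) (f : (Fin m → ZMod p) → R), Z Set.univ (m * (p - 1)) f → ∑ x, f x = 0
  | 0, f, hf => by
    rw [zero_mul] at hf
    have : f = 0 := hf
    simp [this]
  | m + 1, f, hf => by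
    let e := (Fin.consLinearEquiv (ZMod p) (fun _ : Fin (m + 1) => ZMod p)).toAddEquiv
    let φ₂ := e.toAddMonoidHom.comp (AddMonoidHom.inr _ _)
    rw [add_mul, one_mul] at hf
    have h1 := Z_iter (Set.mem_univ (e (1, 0))) _ hf
    have h2 := sum_pi m _ (Z_comp φ₂ (H' := Set.univ) (fun _ _ => Set.mem_univ _) h1)
    rw [← h2, ← e.toEquiv.sum_comp, Fintype.sum_prod_type_right]
    refine Finset.sum_congr rfl fun y _ => ?_
    rw [op2, LinearMap.sum_apply, Finset.sum_apply]
    simp only [tr_pow]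
    haveI : NeZero p := ⟨hp.out.ne_zero⟩
    symm
    refine Finset.sum_bij (fun j _ => (j : ZMod p)) (fun _ _ => Finset.mem_univ _) ?_ ?_ ?_
    · intro a ha b hb hab
      have := congrArg ZMod.val hab
      rwa [ZMod.val_natCast_of_lt (Finset.mem_range.1 ha), ZMod.val_natCast_of_lt (Finset.mem_range.1 hb)] at this
    · intro b _
      exact ⟨b.val, Finset.mem_range.2 (ZMod.val_lt b), by simp⟩
    · intro j _
      congr 1
      simp only [φ₂, AddMonoidHom.comp_apply, AddEquiv.coe_toAddMonoidHom, ← map_nsmul, ← map_add]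
      show e _ = e _
      congr 1
      simp

theorem equiv_of' (B : Type*) [AddCommGroup B] [Finite B] [Module (ZMod p) B] {m : ℕ}
    (hm : Nat.card B = p ^ m) : Nonempty (B ≃+ (Fin m → ZMod p)) := by
  haveI : Module.Finite (ZMod p) B := Module.Finite.of_finite
  have h1 : Nat.card B = p ^ Module.finrank (ZMod p) B := by
    rw [Module.natCard_eq_pow_finrank (K := ZMod p), Nat.card_zmod]
  have h2 : Module.finrank (ZMod p) B = m := Nat.pow_right_injective hp.out.two_le (h1.symm.trans hm)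
  exact ⟨(LinearEquiv.ofFinrankEq (R := ZMod p) B (Fin m → ZMod p) (by simpa using h2)).toAddEquiv⟩

theorem equiv_of (B : Type*) [AddCommGroup B] [Finite B] (h : ∀ x : B, p • x = 0) {m : ℕ}
    (hm : Nat.card B = p ^ m) : Nonempty (B ≃+ (Fin m → ZMod p)) :=
  @equiv_of' p _ B _ _ (AddCommGroup.zmodModule h) m hm

theorem ind_of {B : Type*} [AddCommGroup B] [Finite B] (h : ∀ x : B, p • x = 0) {m : ℕ}
    (hm : Nat.card B = p ^ m) (f : B → R) : Z Set.univ (m * (p - 1) + 1) f := by
  obtain ⟨e⟩ := equiv_of p B h hm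
  have := Z_comp e.toAddMonoidHom (H' := Set.univ) (fun _ _ => Set.mem_univ _) (ind_pi p m (fun y => f (e.symm y)))
  simpa using this

theorem sum_of {B : Type*} [AddCommGroup B] [Fintype B] (h : ∀ x : B, p • x = 0) {m : ℕ}
    (hm : Nat.card B = p ^ m) (f : B → R) (hf : Z Set.univ (m * (p - 1)) f) : ∑ x, f x = 0 := by
  obtain ⟨e⟩ := equiv_of p B h hm
  have := sum_pi p m _ (Z_comp e.symm.toAddMonoidHom (H' := Set.univ) (fun _ _ => Set.mem_univ _) hf)
  rw [← this, ← e.symm.toEquiv.sum_comp]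
  rfl

end

open Module Classical in
theorem ind_sub {F V : Type*} [Field F] [Finite F] [AddCommGroup V] [Module F V] [Finite V] (p : ℕ) [hp : Fact p.Prime]
    [CharP F p] {e c : ℕ} (he : Nat.card F = p ^ e) (W : Submodule F V) (hc : finrank F V ≤ finrank F W + c) (a : V) :
    Z Set.univ (e * c * (p - 1) + 1) (fun y => if a + y ∈ W then (1 : F) else 0) := by
  haveI : Module.Finite F V := Module.Finite.of_finite
  haveI : Finite (V ⧸ W) := Finite.of_surjective _ W.mkQ_surjective
  have h1 : Nat.card (V ⧸ W) = p ^ (e * finrank F (V ⧸ W)) := by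
    rw [Module.natCard_eq_pow_finrank (K := F), he, pow_mul]
  have h2 : finrank F (V ⧸ W) ≤ c := by
    have := W.finrank_quotient_add_finrank
    omega
  have h3 := ind_of (R := F) p (B := V ⧸ W) (fun x => by rw [← Nat.cast_smul_eq_nsmul F, CharP.cast_eq_zero, zero_smul]) h1
    (fun z => if W.mkQ a + z = 0 then (1 : F) else 0)
  have h4 := Z_comp W.mkQ.toAddMonoidHom (H' := Set.univ) (fun _ _ => Set.mem_univ _) h3
  refine Z_le (D := e * finrank F (V ⧸ W) * (p - 1) + 1) ?_ (by gcongr)
  convert h4 using 3 with y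
  rw [← Submodule.Quotient.mk_eq_zero, Submodule.Quotient.mk_add]
  rfl

open Module Classical in
theorem deg_sum {F K : Type*} [Field F] [Finite F] [Field K] [Algebra F K] [Fintype K] (W : K → K → Submodule F K)
    (sym : ∀ a b x, x ∈ W a b ↔ a ∈ W x b) (sym' : ∀ a b x, x ∈ W a b ↔ b ∈ W a x) {c : ℕ}
    (codim : ∀ a b, finrank F K ≤ finrank F (W a b) + c) (h3 : 3 * c < finrank F K) (a b x : K) :
    ∑ s : K, (if s * x ∈ W (s * a) (s * b) then (1 : F) else 0) = 0 := by
  obtain ⟨p, hp⟩ := CharP.exists F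
  haveI := Fintype.ofFinite F
  obtain ⟨e, hpp, he⟩ := FiniteField.card F p
  haveI := Fact.mk hpp
  rw [← Nat.card_eq_fintype_card] at he
  let f : K × K × K → F := fun t => if t.2.2 ∈ W t.1 t.2.1 then 1 else 0
  let φ₁ : K →+ K × K × K := AddMonoidHom.inl _ _
  let φ₂ : K →+ K × K × K := (AddMonoidHom.inr _ _).comp (AddMonoidHom.inl _ _)
  let φ₃ : K →+ K × K × K := (AddMonoidHom.inr _ _).comp (AddMonoidHom.inr _ _)
  have h1 : Z (Set.range φ₁) (e * c * (p - 1) + 1) f := Z_part φ₁ fun t => by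
    convert ind_sub p he (W t.2.2 t.2.1) (codim _ _) t.1 using 3 with y
    simp [f, φ₁, sym (t.1 + y)]
  have h2 : Z (Set.range φ₂) (e * c * (p - 1) + 1) f := Z_part φ₂ fun t => by
    convert ind_sub p he (W t.1 t.2.2) (codim _ _) t.2.1 using 3 with y
    simp [f, φ₂, sym' t.1 (t.2.1 + y)]
  have h3' : Z (Set.range φ₃) (e * c * (p - 1) + 1) f := Z_part φ₃ fun t => by
    convert ind_sub p he (W t.1 t.2.1) (codim _ _) t.2.2 using 3 with y
    simp [f, φ₃]
  have h23 : Z {t : K × K × K | t.1 = 0} (2 * (e * c * (p - 1)) + 1) f :=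
    Z_plus (H₁ := Set.range φ₂) (H₂ := Set.range φ₃) (fun h hh => ⟨_, ⟨h.2.1, rfl⟩, _, ⟨h.2.2, rfl⟩, by
      have : h.1 = 0 := hh
      ext <;> simp [φ₂, φ₃, this]⟩) h2 h3' (by omega)
  have h123 : Z Set.univ (3 * (e * c * (p - 1)) + 1) f :=
    Z_plus (H₁ := Set.range φ₁) (H₂ := {t : K × K × K | t.1 = 0}) (fun h _ => ⟨_, ⟨h.1, rfl⟩, (0, h.2), rfl, by ext <;> simp [φ₁]⟩) h1 h23 (by omega)
  let ψ : K →+ K × K × K :=
    (AddMonoidHom.mulRight a).prod ((AddMonoidHom.mulRight b).prod (AddMonoidHom.mulRight x))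
  have h4 := Z_comp ψ (H' := Set.univ) (fun _ _ => Set.mem_univ _) h123
  haveI : Module.Finite F K := Module.Finite.of_finite
  have hK : Nat.card K = p ^ (e * finrank F K) := by
    rw [Module.natCard_eq_pow_finrank (K := F), he, pow_mul]
  have h5 : 3 * (e * c * (p - 1)) + 1 ≤ e * finrank F K * (p - 1) := by
    have h6 : 1 ≤ (e : ℕ) * (p - 1) := Nat.mul_pos e.pos (by have := hpp.two_le; omega)
    have h7 : (3 * c + 1) * (e * (p - 1)) ≤ finrank F K * (e * (p - 1)) := Nat.mul_le_mul_right _ h3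
    nlinarith
  exact sum_of p (fun y => by rw [← Nat.cast_smul_eq_nsmul F, CharP.cast_eq_zero, zero_smul]) hK _ (Z_le h4 h5)

end Cfsg.Agent.SG.Deg

namespace Cfsg.Agent.SG

open Module Classical in
/-- The degree bound. -/
theorem deg {F K : Type*} [Field F] [Finite F] [Field K] [Algebra F K] [Finite K] (W : K → K → Submodule F K)
    (sym : ∀ a b x, x ∈ W a b ↔ a ∈ W x b) (sym' : ∀ a b x, x ∈ W a b ↔ b ∈ W a x) {c : ℕ}
    (codim : ∀ a b, finrank F K ≤ finrank F (W a b) + c) (S : Subgroup Kˣ) (hS : S.index < Nat.card F)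
    (inv : ∀ s ∈ S, ∀ a b x, x ∈ W a b → (s : K) * x ∈ W (s * a) (s * b))
    {a b : K} (hne : ∀ s : Kˣ, W (s * a) (s * b) ≠ ⊤) : finrank F K ≤ 3 * c := by
  by_contra h3
  push Not at h3
  haveI := Fintype.ofFinite K
  haveI := Fintype.ofFinite (Kˣ ⧸ S)
  let P : Kˣ ⧸ S → Submodule F K := fun t =>
    (W (t.out * a) (t.out * b)).comap (LinearMap.mulLeft F (t.out : K))
  have hP : ∀ t, P t ≠ ⊤ := fun t ht => hne t.out (by
    rw [eq_top_iff]
    intro y _
    have : ((t.out⁻¹ : Kˣ) : K) * y ∈ P t := ht ▸ Submodule.mem_top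
    simpa [P, ← mul_assoc] using this)
  have h1 := Submodule.iUnion_ssubset_of_forall_ne_top_of_card_lt Finset.univ P hP (by
    rw [Finset.card_univ, ← Nat.card_eq_fintype_card, ENat.card_eq_coe_natCard]
    exact_mod_cast hS)
  obtain ⟨x, -, hx⟩ := Set.exists_of_ssubset h1
  have h2 := Deg.deg_sum W sym sym' codim h3 a b x
  rw [Finset.sum_eq_single (0 : K)] at h2
  · simp at h2
  · intro s _ hs
    rw [if_neg]
    intro h
    apply hx
    simp only [Finset.mem_univ, Set.iUnion_true, Set.mem_iUnion, SetLike.mem_coe]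
    obtain ⟨u, hu⟩ := QuotientGroup.mk_out_eq_mul S (Units.mk0 s hs)
    refine ⟨QuotientGroup.mk (Units.mk0 s hs), ?_⟩
    have := inv u u.2 _ _ _ h
    simp only [P, Submodule.mem_comap, LinearMap.mulLeft_apply, hu, Units.val_mul, Units.val_mk0]
    simpa only [mul_comm s ((u : Kˣ) : K), mul_assoc] using this
  · simp

end Cfsg.Agent.SG
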