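import Cfsg.Agent.H4.CAChar
import Cfsg.Agent.H5.CharTools
import Cfsg.Agent.H1.PermChar

/-! Exceptional characters: the structure theorem and general tools. -/

set_option autoImplicit false

namespace Cfsg.Agent.SG.Ex

open Cfsg.Agent.H4.CABasic Cfsg.Agent.H4.Irr Cfsg.Agent.H4.CAChar Cfsg.Agent.H4.AbChar

variable {G : Type*} [Group G] [Fintype G] {A : Subgroup G}
  {N : ℕ} {d : Fin N → ℕ} {ρ : ∀ i, Representation ℂ G (Fin (d i) → ℂ)}

theorem orb_eq {lam μ : A →* ℂˣ} (h : μ ∈ orb lam) : orb μ = orb lam := by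
  obtain ⟨z, rfl⟩ := mem_orb.1 h
  ext ν
  rw [mem_orb, mem_orb]
  constructor
  · rintro ⟨y, rfl⟩
    exact ⟨z * y, act_mul _ _ _⟩
  · rintro ⟨y, rfl⟩
    exact ⟨z⁻¹ * y, by rw [← act_mul, mul_inv_cancel_left]⟩

theorem exists_reps (hA : IsCA A) [Fintype (A →* ℂˣ)] : ∃ (t : ℕ) (r : Fin t → (A →* ℂˣ)),
    (∀ j, r j ≠ 1) ∧ (∀ j l, r l ∈ orb (r j) → j = l) ∧ (∀ μ, μ ≠ 1 → ∃ j, μ ∈ orb (r j)) ∧
    ∀ f : (A →* ℂˣ) → ℕ, (∀ lam μ, lam ≠ 1 → μ ∈ orb lam → f lam = f μ) →
      ∑ μ, f μ = f 1 + A.relIndex (Subgroup.normalizer (A : Set G)) * ∑ j, f (r j) := by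
  classical
  let S : Finset (Finset (A →* ℂˣ)) := (Finset.univ.erase 1).image orb
  have h1 : ∀ s : S, ∃ μ : A →* ℂˣ, μ ≠ 1 ∧ orb μ = s := fun s => by
    obtain ⟨μ, h, e⟩ := Finset.mem_image.1 s.2
    exact ⟨μ, (Finset.mem_erase.1 h).1, e⟩
  choose r hr1 hr2 using h1
  let e := (Fintype.equivFin S).symm
  refine ⟨_, r ∘ e, fun j => hr1 _, fun j l h => ?_, fun μ hμ => ?_, fun f hf => ?_⟩
  · have := orb_eq h
    simp only [Function.comp_apply, hr2] at this
    exact (e.injective (Subtype.ext this)).symm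
  · refine ⟨e.symm ⟨orb μ, Finset.mem_image_of_mem _ (by simp [hμ])⟩, ?_⟩
    simp only [Function.comp_apply, Equiv.apply_symm_apply, hr2]
    exact self_mem_orb μ
  · rw [← Finset.add_sum_erase _ _ (Finset.mem_univ 1),
      ← Finset.sum_fiberwise_of_maps_to (t := S) (g := orb)
        (fun μ h => Finset.mem_image_of_mem _ h), ← Finset.sum_coe_sort S, Finset.mul_sum]
    congr 1
    refine (Fintype.sum_equiv e _ _ fun j => ?_).symm
    have : (Finset.univ.erase 1).filter (fun μ => orb μ = (e j : Finset _)) = orb (r (e j)) := by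
      ext μ
      simp only [Finset.mem_filter, Finset.mem_erase, Finset.mem_univ, and_true]
      constructor
      · rintro ⟨-, h⟩
        rw [hr2, ← h]
        exact self_mem_orb μ
      · intro h
        exact ⟨ne_one_of_mem_orb (hr1 _) h, by rw [orb_eq h, hr2]⟩
    rw [this, Finset.sum_congr rfl (fun μ h => (hf _ μ (hr1 _) h).symm), Finset.sum_const,
      card_orb hA (hr1 _), smul_eq_mul]
    rfl

theorem exists_m (hρ : IsIrrSys ρ) {V : Type*} [AddCommGroup V] [Module ℂ V]
    [FiniteDimensional ℂ V] (σ : Representation ℂ G V) : ∃ m : Fin N → ℕ,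
    (∀ i, ip σ.character (ρ i).character = m i) ∧
      ∀ g, σ.character g = ∑ i, (m i : ℂ) * (ρ i).character g := by
  choose m hm using fun i => ip_char_nat σ (ρ i)
  refine ⟨m, hm, fun g => ?_⟩
  rw [← hρ.expand σ.character (fun g x => σ.char_conj g x) g]
  simp only [hm]

open Classical in
theorem res_ip {φ : G → ℂ} {m : Fin N → ℕ}
    (hm : ∀ g, φ g = ∑ i, (m i : ℂ) * (ρ i).character g) (μ : A →* ℂˣ) :
    ip (fun k : A => (μ k : ℂ)) (fun k : A => φ k) = ((∑ i, m i * mult ρ μ i : ℕ) : ℂ) := by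
  push_cast
  simp only [← mult_spec, ip, hm, Finset.mul_sum]
  rw [Finset.sum_comm]
  refine Finset.sum_congr rfl fun i _ => Finset.sum_congr rfl fun k _ => ?_
  ring

theorem avg_char {V : Type*} [AddCommGroup V] [Module ℂ V] [FiniteDimensional ℂ V]
    (σ : Representation ℂ G V) (K : Subgroup G) [Fintype K] :
    (Nat.card K : ℂ)⁻¹ * ∑ k : K, σ.character k =
      Module.finrank ℂ (Representation.invariants (σ.comp K.subtype)) := by
  haveI : Invertible (Nat.card K : ℂ) := invertibleOfNonzero (card_ne_zero K)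
  exact Representation.card_inv_mul_sum_char_eq_finrank (σ.comp K.subtype)

theorem avg_eq {V : Type*} [AddCommGroup V] [Module ℂ V] [FiniteDimensional ℂ V]
    (σ : Representation ℂ G V) {m : Fin N → ℕ}
    (hm : ∀ g, σ.character g = ∑ i, (m i : ℂ) * (ρ i).character g) (K : Subgroup G) :
    Module.finrank ℂ (Representation.invariants (σ.comp K.subtype)) =
      ∑ i, m i * Module.finrank ℂ (Representation.invariants ((ρ i).comp K.subtype)) := by
  classical
  have h := avg_char σ K
  simp only [hm] at h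
  rw [Finset.sum_comm, Finset.mul_sum] at h
  have : ∀ i, (Nat.card K : ℂ)⁻¹ * ∑ k : K, (m i : ℂ) * (ρ i).character k =
      m i * Module.finrank ℂ (Representation.invariants ((ρ i).comp K.subtype)) := fun i => by
    rw [← avg_char, ← Finset.mul_sum]
    ring
  simp only [this] at h
  exact_mod_cast h.symm

theorem inv_full {i : Fin N} {K : Subgroup G} (h : ∀ k ∈ K, ρ i k = 1) :
    Module.finrank ℂ (Representation.invariants ((ρ i).comp K.subtype)) = d i := by
  have : Representation.invariants ((ρ i).comp K.subtype) = ⊤ := by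
    refine eq_top_iff.2 fun v _ k => ?_
    change ρ i k v = v
    rw [h k k.2]
    rfl
  rw [this]
  simp

theorem inv_A (i : Fin N) :
    Module.finrank ℂ (Representation.invariants ((ρ i).comp A.subtype)) =
      mult ρ (1 : A →* ℂˣ) i := by
  classical
  have h1 := avg_char (ρ i) A
  have h2 := mult_spec (ρ := ρ) (1 : A →* ℂˣ) i
  rw [ip, ← Equiv.sum_comp (Equiv.inv A)] at h2
  simp only [MonoidHom.one_apply, Units.val_one, one_mul, Equiv.inv_apply, inv_inv] at h2
  have : ((Module.finrank ℂ (Representation.invariants ((ρ i).comp A.subtype)) : ℕ) : ℂ) =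
      mult ρ (1 : A →* ℂˣ) i := by
    rw [← h1, ← h2]
  exact_mod_cast this

theorem sum_eq_zero {V : Type*} [AddCommGroup V] [Module ℂ V] [FiniteDimensional ℂ V]
    (σ : Representation ℂ G V) {i : Fin N} (h : ip σ.character (ρ i).character = 0) (w : V) :
    ∑ g : G, (ρ i).character g⁻¹ • σ g w = 0 := by
  classical
  haveI : Invertible (Nat.card G : ℂ) := invertibleOfNonzero (card_ne_zero G)
  have h1 := Representation.card_inv_mul_sum_char_eq_finrank ((ρ i).linHom σ)
  simp only [Representation.char_linHom, mul_comm ((ρ i).character _)] at h1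
  rw [ip] at h
  rw [h] at h1
  have h2 : Representation.invariants ((ρ i).linHom σ) = ⊥ :=
    Submodule.finrank_eq_zero.1 (by exact_mod_cast h1.symm)
  have h3 : ∀ φ : (Fin (d i) → ℂ) →ₗ[ℂ] V, ∑ g : G, (ρ i).linHom σ g φ = 0 := fun φ => by
    rw [← Submodule.mem_bot ℂ, ← h2]
    intro x
    rw [map_sum]
    exact Fintype.sum_equiv (Equiv.mulLeft x) _ _ fun g => by
      simp only [Equiv.coe_mulLeft, map_mul, Module.End.mul_apply]
  have h4 : ∀ s : Fin (d i), ∑ g : G, (ρ i g⁻¹ (Pi.single s 1)) s • σ g w = 0 := fun s => by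
    have := congrArg (fun f => f (Pi.single s 1)) (h3 ((LinearMap.proj s).smulRight w))
    simpa [Representation.linHom_apply, LinearMap.sum_apply] using this
  have h5 : ∀ g : G, (ρ i).character g = ∑ s, (ρ i g (Pi.single s 1)) s := fun g => by
    rw [Representation.character, H1.PermChar.trace_eq, Matrix.trace]
    simp only [Matrix.diag_apply, LinearMap.toMatrix'_apply]
  simp only [h5, Finset.sum_smul]
  rw [Finset.sum_comm]
  simp only [h4, Finset.sum_const_zero]

end Cfsg.Agent.SG.Ex
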