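import Cfsg.Agent.SG.Ex0

/-! Exceptional characters of small degree. -/

set_option autoImplicit false

namespace Cfsg.Agent.SG.Ex

open Cfsg.Agent.H4.CABasic Cfsg.Agent.H4.Irr Cfsg.Agent.H4.CAChar Cfsg.Agent.H4.AbChar

variable {G : Type*} [Group G] [Fintype G] {A : Subgroup G}
  {N : ℕ} {d : Fin N → ℕ} {ρ : ∀ i, Representation ℂ G (Fin (d i) → ℂ)}

theorem sum_range_le {t : ℕ} {χ : Fin t → Fin N} (hχ : Function.Injective χ) (x : Fin N → ℕ) :
    ∑ l, x (χ l) ≤ ∑ i, x i := by
  classical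
  rw [← Finset.sum_image (s := Finset.univ) (g := χ) (f := x) fun a _ b _ e => hχ e]
  exact Finset.sum_le_sum_of_subset (Finset.subset_univ _)

theorem ker_of_deg {i : Fin N} (h : d i = mult ρ (1 : A →* ℂˣ) i) :
    ∀ k ∈ Subgroup.normalClosure (A : Set G), ρ i k = 1 := by
  have h1 : Representation.invariants ((ρ i).comp A.subtype) = ⊤ :=
    Submodule.eq_top_of_finrank_eq (by rw [inv_A, ← h]; simp)
  have h2 : Subgroup.normalClosure (A : Set G) ≤ MonoidHom.ker (ρ i).asGroupHom := by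
    refine Subgroup.normalClosure_le_normal fun a ha => ?_
    refine Units.ext (LinearMap.ext fun v => ?_)
    have : v ∈ Representation.invariants ((ρ i).comp A.subtype) := h1 ▸ Submodule.mem_top
    exact this ⟨a, ha⟩
  intro k hk
  exact congrArg Units.val (h2 hk)

theorem comm_of (hρ : IsIrrSys ρ) (hA : IsCA A) (l : Fin N)
    (h : ∀ i, d i ≤ d l * d l → mult ρ (1 : A →* ℂˣ) i = 0 ∨ d i = mult ρ (1 : A →* ℂˣ) i)
    {k a : G} (hk : k ∈ Subgroup.normalClosure (A : Set G)) (ha : a ∈ A) :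
    ρ l (k * a * k⁻¹ * a⁻¹) = 1 := by
  obtain ⟨n, -, hn⟩ := exists_m hρ ((ρ l).linHom (ρ l))
  have h1 := hn 1
  simp only [Representation.char_linHom, inv_one, hρ.char_one] at h1
  have h2 : d l * d l = ∑ i, n i * d i := by exact_mod_cast h1
  have h3 : Representation.invariants (((ρ l).linHom (ρ l)).comp
      (Subgroup.normalClosure (A : Set G)).subtype) =
      Representation.invariants (((ρ l).linHom (ρ l)).comp A.subtype) := by
    refine Submodule.eq_of_le_of_finrank_le
      (fun v hv x => hv ⟨x, Subgroup.subset_normalClosure x.2⟩) ?_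
    rw [avg_eq _ hn, avg_eq _ hn]
    refine Finset.sum_le_sum fun i _ => ?_
    rcases Nat.eq_zero_or_pos (n i) with h0 | h0
    · simp [h0]
    refine Nat.mul_le_mul_left _ ?_
    have h4 : n i * d i ≤ ∑ i, n i * d i :=
      Finset.single_le_sum (f := fun i => n i * d i) (fun _ _ => Nat.zero_le _) (Finset.mem_univ i)
    rw [inv_A]
    rcases h i (by nlinarith) with h5 | h5
    · omega
    · rw [inv_full (ker_of_deg h5), h5]
  have h4 : ρ l a ∈ Representation.invariants (((ρ l).linHom (ρ l)).comp A.subtype) := by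
    intro x
    change ρ l x ∘ₗ ρ l a ∘ₗ ρ l (x : G)⁻¹ = _
    rw [← Module.End.mul_eq_comp, ← Module.End.mul_eq_comp, ← map_mul, ← map_mul, ← mul_assoc,
      hA.comm _ x.2 _ ha, mul_inv_cancel_right]
  rw [← h3] at h4
  have h5 : ρ l k ∘ₗ ρ l a ∘ₗ ρ l k⁻¹ = ρ l a := h4 ⟨k, hk⟩
  rw [← Module.End.mul_eq_comp, ← Module.End.mul_eq_comp, ← map_mul, ← map_mul,
    ← mul_assoc] at h5
  rw [map_mul, h5, ← map_mul, mul_inv_cancel, map_one]

theorem lam_one {i : Fin N} {μ : A →* ℂˣ} (h : mult ρ μ i ≠ 0) {x : A} (hx : ρ i x = 1) :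
    μ x = 1 := by
  classical
  have h1 := mult_spec (ρ := ρ) μ i
  have h2 := h1
  rw [ip, ← Equiv.sum_comp (Equiv.mulLeft x)] at h2
  have h3 : ∀ k : A, (ρ i).character ((x * k)⁻¹ : A) = (ρ i).character (k⁻¹ : A) := fun k => by
    have : ρ i (x : G)⁻¹ = 1 := by
      have h4 := map_mul (ρ i) (x : G)⁻¹ x
      rwa [hx, inv_mul_cancel, map_one, mul_one, eq_comm] at h4
    simp only [Representation.character, mul_inv_rev, Subgroup.coe_mul, InvMemClass.coe_inv,
      map_mul, this, mul_one]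
  simp only [Equiv.coe_mulLeft, h3, map_mul, Units.val_mul, mul_assoc, ← Finset.mul_sum] at h2
  rw [mul_left_comm] at h2
  rw [ip] at h1
  rw [h1] at h2
  exact Units.ext (mul_right_cancel₀ (by exact_mod_cast h) (h2.trans (one_mul _).symm))

variable {Ω : Type*} [Fintype Ω] [MulAction G Ω]

theorem bot_of (hA : IsCA A) {j f : ℕ} (hΩ : Fintype.card Ω = j * Nat.card A)
    (hf : ∀ g : G, g ≠ 1 → Nat.card (MulAction.fixedBy Ω g) ≤ f) (h2 : j + f + 1 < Nat.card A)
    (L : Subgroup G) [hL : L.Normal] (hLA : ∀ x ∈ L, x ∈ A → x = 1)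
    (h : Nat.card A ≤ Module.finrank ℂ
      (Representation.invariants ((permRep ℂ G Ω).comp L.subtype)) + 1) : L = ⊥ := by
  classical
  by_contra hne
  obtain ⟨x, hx⟩ := Subgroup.ne_bot_iff_exists_ne_one.1 hne
  have h3 : Nat.card A ≤ Nat.card L := by
    refine Nat.card_le_card_of_injective
      (fun a : A => (⟨a * x * (a : G)⁻¹, hL.conj_mem _ x.2 _⟩ : L)) fun a b e => ?_
    by_contra hab
    have e1 : (a : G) * x * (a : G)⁻¹ = b * x * (b : G)⁻¹ := congrArg Subtype.val e
    refine hx (Subtype.ext (hLA _ x.2 ((hA.cent _ (b⁻¹ * a).2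
      (fun e => hab (inv_mul_eq_one.1 (Subtype.ext e)).symm) _).1 ?_)))
    simp only [Subgroup.coe_mul, InvMemClass.coe_inv]
    calc (x : G) * ((b : G)⁻¹ * a) = (b : G)⁻¹ * (b * x * (b : G)⁻¹) * a := by group
      _ = _ := by rw [← e1]; group
  have h4 := avg_char (permRep ℂ G Ω) L
  rw [inv_mul_eq_iff_eq_mul₀ (card_ne_zero L), H1.PermChar.character_permRep] at h4
  simp only at h4
  have h5 : ∑ k : L, Nat.card (MulAction.fixedBy Ω (k : G)) = Nat.card L * Module.finrank ℂ
      (Representation.invariants ((permRep ℂ G Ω).comp L.subtype)) := by exact_mod_cast h4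
  rw [← Finset.add_sum_erase _ _ (Finset.mem_univ 1)] at h5
  have h6 : ∑ k ∈ Finset.univ.erase (1 : L), Nat.card (MulAction.fixedBy Ω (k : G)) ≤
      Nat.card L * f := by
    refine (Finset.sum_le_card_nsmul _ _ f fun k hk =>
      hf _ fun e => (Finset.mem_erase.1 hk).1 (Subtype.ext e)).trans ?_
    rw [smul_eq_mul, Nat.card_eq_fintype_card]
    exact Nat.mul_le_mul_right _ (Finset.card_le_univ _)
  have h7 : Nat.card (MulAction.fixedBy Ω ((1 : L) : G)) ≤ j * Nat.card L := by
    refine (Nat.card_le_card_of_injective _ Subtype.val_injective).trans ?_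
    rw [Nat.card_eq_fintype_card, hΩ]
    exact Nat.mul_le_mul_left _ h3
  have h8 : 0 < Nat.card L := Nat.card_pos
  nlinarith

theorem res_perm (hfree : ∀ a ∈ A, a ≠ 1 → ∀ ω : Ω, a • ω ≠ ω) {m : Fin N → ℕ}
    (hm : ∀ g, (permRep ℂ G Ω).character g = ∑ i, (m i : ℂ) * (ρ i).character g)
    (lam μ : A →* ℂˣ) : ∑ i, m i * mult ρ lam i = ∑ i, m i * mult ρ μ i := by
  classical
  have h : ∀ μ : A →* ℂˣ, ((∑ i, m i * mult ρ μ i : ℕ) : ℂ) =
      (Nat.card A : ℂ)⁻¹ * (permRep ℂ G Ω).character 1 := fun μ => by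
    rw [← res_ip hm, ip, Finset.sum_eq_single 1]
    · simp
    · intro k _ hk
      have : IsEmpty (MulAction.fixedBy Ω ((k⁻¹ : A) : G)) :=
        ⟨fun ω => hfree _ (k⁻¹).2 (by simpa using hk) _ ω.2⟩
      simp only [H1.PermChar.character_permRep, Nat.card_of_isEmpty, Nat.cast_zero, mul_zero]
    · simp
  exact_mod_cast (h lam).trans (h μ).symm

theorem ne_of (hρ : IsIrrSys ρ) (hA : IsCA A) {w j f : ℕ}
    (hw : A.relIndex (Subgroup.normalizer (A : Set G)) = w)
    (hfree : ∀ a ∈ A, a ≠ 1 → ∀ ω : Ω, a • ω ≠ ω) (hΩ : Fintype.card Ω = j * Nat.card A)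
    (hf : ∀ g : G, g ≠ 1 → Nat.card (MulAction.fixedBy Ω g) ≤ f)
    (h1 : (w + 2 * j + 4) * w + 1 ≤ Nat.card A) (h2 : j + f + 1 < Nat.card A) (hn : ¬ A.Normal)
    {i : Fin N} (hi : ip (permRep ℂ G Ω).character (ρ i).character ≠ 0) {lam μ : A →* ℂˣ}
    (hl : lam ≠ 1) (hμ : μ ≠ 1) : mult ρ lam i = mult ρ μ i := by
  classical
  have := finite_chars hA.comm'
  have := Fintype.ofFinite (A →* ℂˣ)
  obtain ⟨t, r, r1, r2, r3, r4⟩ := exists_reps hA
  rw [hw] at r4
  have ha : Nat.card A = 1 + w * t := by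
    have := r4 (fun _ => 1) fun _ _ _ _ => rfl
    rw [← card_chars hA.comm', Nat.card_eq_fintype_card]
    simpa using this
  have hw0 : 0 < w := by
    rw [← hw]
    exact Nat.pos_of_ne_zero Subgroup.FiniteIndex.index_ne_zero
  have ht : w + 2 * j + 4 ≤ t := by
    refine Nat.le_of_mul_le_mul_left ?_ hw0
    nlinarith
  have hd : ∀ i, d i = mult ρ (1 : A →* ℂˣ) i + w * ∑ k, mult ρ (r k) i := fun i => by
    rw [deg_eq_sum hρ hA i, r4 _ fun a b h h' => congrFun (mult_orb hρ hA h h') i]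
  obtain ⟨e, -, he, -⟩ := exists_e hρ hA
  obtain ⟨ε, χ, hε, hχ, hv⟩ := H5.CharTools.exceptional (J := Fin t) (by simp; omega)
    (fun k i => (mult ρ (r k) i : ℤ)) (fun i => (d i : ℤ)) (fun i => by exact_mod_cast hρ.pos i)
    e (∑ i, d i * mult ρ lam i : ℕ) (fun k l => by
      have := he (r k) (r l) (r1 k)
      by_cases h : k = l
      · rw [if_pos (h ▸ self_mem_orb _)] at this
        rw [if_pos h]
        exact_mod_cast this
      · rw [if_neg fun h' => h (r2 _ _ h')] at this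
        rw [if_neg h]
        exact_mod_cast this) (fun k => by
      rw [sum_deg_eq hρ lam (r k)]
      push_cast
      simp only [mul_comm])
  have hNE : ∀ i, (∀ l, i ≠ χ l) → ∀ k l, mult ρ (r k) i = mult ρ (r l) i := fun i h k l => by
    have := hv k l i
    rw [if_neg (h k), if_neg (h l)] at this
    omega
  by_contra hne
  obtain ⟨j0, rfl⟩ : ∃ l, i = χ l := by
    by_contra h
    push Not at h
    obtain ⟨k, hk⟩ := r3 lam hl
    obtain ⟨l, hl'⟩ := r3 μ hμ
    exact hne (by rw [← mult_orb hρ hA (r1 k) hk, ← mult_orb hρ hA (r1 l) hl', hNE i h k l])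
  have key : ∀ x : Fin N → ℕ, (∀ k l, ∑ i, x i * mult ρ (r k) i = ∑ i, x i * mult ρ (r l) i) →
      ∀ l, x (χ l) = x (χ j0) := fun x hx l => by
    have h3 : ∑ i, (x i : ℤ) * ((mult ρ (r l) i : ℤ) - mult ρ (r j0) i) = 0 := by
      simp only [mul_sub, Finset.sum_sub_distrib]
      rw [sub_eq_zero]
      exact_mod_cast hx l j0
    simp only [hv, mul_sub, mul_ite, mul_one, mul_zero, Finset.sum_sub_distrib,
      Finset.sum_ite_eq', Finset.mem_univ, if_true] at h3
    rcases hε with rfl | rfl <;> omega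
  obtain ⟨m, hm1, hm⟩ := exists_m hρ (permRep ℂ G Ω)
  have hm0 : ∀ l, 0 < m (χ l) := fun l => by
    rw [key m (fun k l => res_perm hfree hm _ _) l]
    exact Nat.pos_of_ne_zero fun h => hi (by rw [hm1, h, Nat.cast_zero])
  have hD := key d fun k l => sum_deg_eq hρ _ _
  have hdeg : ∑ i, m i * d i = j * (1 + w * t) := by
    have := hm 1
    simp only [hρ.char_one, Representation.char_one, Module.finrank_fintype_fun_eq_card] at this
    rw [← ha, ← hΩ]
    exact_mod_cast this.symm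
  have htD : t * d (χ j0) ≤ j * (1 + w * t) := by
    rw [← hdeg]
    refine le_trans ?_ (sum_range_le hχ fun i => m i * d i)
    have := Finset.card_nsmul_le_sum Finset.univ (fun l => m (χ l) * d (χ l)) (d (χ j0))
      fun l _ => by rw [hD l]; exact Nat.le_mul_of_pos_left _ (hm0 l)
    simpa using this
  have hb : ∀ l k, k ≠ l → mult ρ (r k) (χ l) = 0 := fun l k hk => by
    by_contra h0
    have h3 : ∀ k' ∈ Finset.univ.erase l, 1 ≤ mult ρ (r k') (χ l) := fun k' hk' => by
      have := hv k' k (χ l)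
      rw [if_neg fun e => (Finset.mem_erase.1 hk').1 (hχ e).symm,
        if_neg fun e => hk (hχ e).symm] at this
      omega
    have h4 := Finset.card_nsmul_le_sum _ _ _ h3
    have h5 := Finset.add_sum_erase _ (fun k' => mult ρ (r k') (χ l)) (Finset.mem_univ l)
    rw [Finset.card_erase_of_mem (Finset.mem_univ _), Finset.card_univ, Fintype.card_fin,
      smul_eq_mul, mul_one] at h4
    have h6 := hd (χ l)
    rw [hD] at h6
    obtain ⟨s, rfl⟩ : ∃ s, t = s + 1 := ⟨t - 1, by omega⟩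
    have h7 : w * s ≤ d (χ j0) := by
      have : s ≤ ∑ k, mult ρ (r k) (χ l) := by omega
      nlinarith
    have h8 : (s + 1) * (w * s) ≤ j * (1 + w * (s + 1)) := (Nat.mul_le_mul_left _ h7).trans htD
    have h9 : 1 ≤ w * (s + 1) := Nat.mul_pos hw0 (by omega)
    have h10 : (w * (s + 1)) * s ≤ (w * (s + 1)) * (2 * j) := by nlinarith
    have := Nat.le_of_mul_le_mul_left h10 h9
    omega
  have hoth : ∀ l : Fin t, ∃ k, k ≠ l := fun l =>
    Fintype.exists_ne_of_one_lt_card (by simp; omega) l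
  have hone : ∀ l, mult ρ (r l) (χ l) = 1 := fun l => by
    obtain ⟨k, hk⟩ := hoth l
    have := hv l k (χ l)
    rw [if_pos rfl, if_neg fun e => hk (hχ e).symm, hb l k hk] at this
    rcases hε with rfl | rfl <;> omega
  have hd1 : ∀ l, d (χ j0) = mult ρ (1 : A →* ℂˣ) (χ l) + w := fun l => by
    rw [← hD l, hd, Finset.sum_eq_single l (fun k _ hk => hb l k hk) (by simp), hone, mul_one]
  have hz : ∀ l, mult ρ (1 : A →* ℂˣ) (χ l) = 0 := fun l => by
    by_contra h0
    have h3 := sum_sq_one_sub hρ hA (r1 j0)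
    rw [hw] at h3
    have h4 := sum_range_le hχ fun i =>
      (((mult ρ (1 : A →* ℂˣ) i : ℤ) - mult ρ (r j0) i) ^ 2).natAbs
    have h5 : ∑ i, (((mult ρ (1 : A →* ℂˣ) i : ℤ) - mult ρ (r j0) i) ^ 2).natAbs = w + 1 := by
      zify
      simp only [abs_pow, sq_abs] at h3 ⊢
      exact h3
    have h6 := Finset.card_nsmul_le_sum (Finset.univ.erase j0) (fun k =>
      (((mult ρ (1 : A →* ℂˣ) (χ k) : ℤ) - mult ρ (r j0) (χ k)) ^ 2).natAbs) 1 fun k hk => by
        rw [hb k j0 (Finset.mem_erase.1 hk).1.symm, Nat.one_le_iff_ne_zero, Int.natAbs_ne_zero]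
        refine pow_ne_zero _ ?_
        have := hd1 k
        have := hd1 l
        omega
    have h7 := Finset.add_sum_erase _ (fun k =>
      (((mult ρ (1 : A →* ℂˣ) (χ k) : ℤ) - mult ρ (r j0) (χ k)) ^ 2).natAbs) (Finset.mem_univ j0)
    rw [Finset.card_erase_of_mem (Finset.mem_univ _), Finset.card_univ, Fintype.card_fin,
      smul_eq_mul, mul_one] at h6
    omega
  have hDw : ∀ l, d (χ l) = w := fun l => by rw [hD, hd1 l, hz, zero_add]
  let L : Subgroup G := ⨅ l, MonoidHom.ker (ρ (χ l)).asGroupHom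
  have hL : ∀ x, x ∈ L ↔ ∀ l, ρ (χ l) x = 1 := fun x => by
    simp only [L, Subgroup.mem_iInf, MonoidHom.mem_ker, Units.ext_iff]
    rfl
  have : L.Normal := Subgroup.normal_iInf_normal fun _ => inferInstance
  have hbot : L = ⊥ := by
    refine bot_of hA hΩ hf h2 L (fun x hx hxA => ?_) ?_
    · by_contra hx1
      obtain ⟨ν, hν⟩ := exists_char_ne_one hA.comm' (a := ⟨x, hxA⟩) fun e => hx1 (congrArg Subtype.val e)
      obtain ⟨l, hl⟩ := r3 ν fun e => hν (by rw [e]; rfl)
      refine hν (lam_one (ρ := ρ) (i := χ l) ?_ ((hL x).1 hx l))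
      rw [← mult_orb hρ hA (r1 l) hl, hone]
      exact one_ne_zero
    · rw [avg_eq _ hm, ha, add_comm]
      refine Nat.add_le_add_right (le_trans ?_ (sum_range_le hχ fun i => m i * Module.finrank ℂ
        (Representation.invariants ((ρ i).comp L.subtype)))) 1
      have := Finset.card_nsmul_le_sum Finset.univ (fun l => m (χ l) * Module.finrank ℂ
        (Representation.invariants ((ρ (χ l)).comp L.subtype))) w fun l _ => by
          rw [inv_full fun k hk => (hL k).1 hk l, hDw]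
          exact Nat.le_mul_of_pos_left _ (hm0 l)
      simpa [mul_comm] using this
  refine hn ⟨fun a ha' g => ?_⟩
  obtain ⟨a0, ha0⟩ := Subgroup.ne_bot_iff_exists_ne_one.1 hA.ne_bot
  refine (hA.cent _ a0.2 (fun e => ha0 (Subtype.ext e)) _).1 ?_
  have h3 : g * a * g⁻¹ * a0 * (g * a * g⁻¹)⁻¹ * (a0 : G)⁻¹ ∈ L := (hL _).2 fun l =>
    comm_of hρ hA (χ l) (fun i hi => by
      by_cases h : ∃ k, i = χ k
      · obtain ⟨k, rfl⟩ := h
        exact .inl (hz k)
      · push Not at h
        right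
        have h4 := hd i
        rw [Finset.sum_congr rfl fun k _ => hNE i h k j0, Finset.sum_const, Finset.card_univ,
          Fintype.card_fin, smul_eq_mul] at h4
        rw [hDw] at hi
        rcases Nat.eq_zero_or_pos (mult ρ (r j0) i) with h0 | h0
        · rw [h4, h0]
          simp
        · have : w * (w + 1) ≤ w * (t * mult ρ (r j0) i) :=
            Nat.mul_le_mul_left _ (by nlinarith)
          nlinarith)
      (Subgroup.normalClosure_normal.conj_mem _ (Subgroup.subset_normalClosure ha') g) a0.2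
  rw [hbot, Subgroup.mem_bot, mul_inv_eq_one, mul_inv_eq_iff_eq_mul] at h3
  exact h3

end Cfsg.Agent.SG.Ex
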