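import Cfsg.Agent.H4.Bang

/-! Zsigmondy's theorem: primitive prime divisors of `q ^ n - 1`. -/

set_option autoImplicit false

namespace Cfsg.Agent.SG

open Polynomial

theorem zsig_three {q n : ℕ} (hq : 3 ≤ q) (hn : 3 ≤ n) :
    ∃ r : ℕ, r.Prime ∧ IsPrimitiveRoot (q : ZMod r) n := by
  by_contra hcon
  push Not at hcon
  set Φ := ((cyclotomic n ℤ).eval (q : ℤ)).natAbs with hΦ
  have hlow : (q - 1) ^ Nat.totient n < Φ :=
    sub_one_pow_totient_lt_natAbs_cyclotomic_eval (n := n) (q := q) (by omega) (by omega)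
  have hΦ1 : 1 < Φ := lt_of_le_of_lt (Nat.one_le_pow _ _ (by omega)) hlow
  have hΦpos : 0 < (cyclotomic n ℤ).eval (q : ℤ) := cyclotomic_pos' n (by exact_mod_cast (by omega : 1 < q))
  have hΦz : (Φ : ℤ) = (cyclotomic n ℤ).eval (q : ℤ) := by
    rw [hΦ, Int.natCast_natAbs, abs_of_pos hΦpos]
  have key : ∀ r : ℕ, r.Prime → r ∣ Φ → ∃ k m : ℕ, n = r ^ (k + 1) * m ∧ ¬ r ∣ m ∧
      IsPrimitiveRoot (q : ZMod r) m ∧ m ∣ r - 1 := by
    intro r hr hd
    haveI := Fact.mk hr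
    obtain ⟨k, m, hm, hnm⟩ := Nat.exists_eq_pow_mul_and_not_dvd (n := n) (by omega) r hr.ne_one
    haveI : NeZero (m : ZMod r) := ⟨by rwa [Ne, ZMod.natCast_eq_zero_iff]⟩
    have h1 : (cyclotomic n (ZMod r)).IsRoot (q : ZMod r) := by
      have h2 : (((cyclotomic n ℤ).eval (q : ℤ) : ℤ) : ZMod r) = 0 := by
        rw [← hΦz, Int.cast_natCast, ZMod.natCast_eq_zero_iff]
        exact hd
      rw [IsRoot.def, ← map_cyclotomic_int, eval_map,
        show (q : ZMod r) = Int.castRingHom _ (q : ℤ) by simp, eval₂_at_apply]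
      exact h2
    have h3 : IsPrimitiveRoot (q : ZMod r) m := by
      rw [hnm] at h1
      exact isRoot_cyclotomic_prime_pow_mul_iff_of_charP.1 h1
    have hm0 : m ≠ 0 := by rintro rfl; simp at hm
    have h20 : (q : ZMod r) ≠ 0 := h3.ne_zero hm0
    rcases k with _ | k
    · rw [pow_zero, one_mul] at hnm
      exact absurd (hnm ▸ h3) (hcon r hr)
    refine ⟨k, m, hnm, hm, h3, ?_⟩
    rw [h3.eq_orderOf]
    exact ZMod.orderOf_dvd_card_sub_one h20
  obtain ⟨r, hr, hrd⟩ := Nat.exists_prime_and_dvd hΦ1.ne'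
  obtain ⟨k, m, hnm, hm, hprim, hmr⟩ := key r hr hrd
  have hr2 := hr.two_le
  have huniq : ∀ {r' : ℕ}, r'.Prime → r' ∣ Φ → r' = r := by
    intro r' hr' hrd'
    obtain ⟨k', m', hnm', hm', -, hmr'⟩ := key r' hr' hrd'
    by_contra hne
    have h1 : r' ∣ m := by
      have : r' ∣ r ^ (k + 1) * m := by rw [← hnm, hnm', pow_succ', mul_assoc]; exact dvd_mul_right _ _
      exact ((Nat.Prime.dvd_mul hr').1 this).resolve_left fun h =>
        hne ((Nat.prime_dvd_prime_iff_eq hr' hr).1 (hr'.dvd_of_dvd_pow h))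
    have h2 : r ∣ m' := by
      have : r ∣ r' ^ (k' + 1) * m' := by rw [← hnm', hnm, pow_succ', mul_assoc]; exact dvd_mul_right _ _
      exact ((Nat.Prime.dvd_mul hr).1 this).resolve_left fun h =>
        hne ((Nat.prime_dvd_prime_iff_eq hr hr').1 (hr.dvd_of_dvd_pow h)).symm
    have := hr'.two_le
    have h3 := Nat.le_of_dvd (by omega) (h1.trans hmr)
    have h4 := Nat.le_of_dvd (by omega) (h2.trans hmr')
    omega
  have hm0 : m ≠ 0 := by rintro rfl; simp at hm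
  have hsq : ¬ r ^ 2 ∣ Φ := by
    intro hsq
    set d := r ^ k * m with hd
    have hnd : n = d * r := by rw [hnm, hd]; ring
    have hd0 : 0 < d := Nat.pos_of_ne_zero (mul_ne_zero (pow_ne_zero _ hr.ne_zero) hm0)
    have h1 := X_pow_sub_one_mul_cyclotomic_dvd_X_pow_sub_one_of_dvd ℤ (d := d) (n := n)
      (Nat.mem_properDivisors.2 ⟨⟨r, hnd⟩, by nlinarith⟩)
    have h2 := eval_dvd (x := (q : ℤ)) h1
    simp only [eval_mul, eval_sub, eval_pow, eval_X, eval_one] at h2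
    have h3 : (r : ℤ) ∣ (q : ℤ) ^ d - 1 := by
      rw [← ZMod.intCast_zmod_eq_zero_iff_dvd]
      push_cast
      rw [hd, mul_comm, pow_mul, hprim.pow_eq_one, one_pow, sub_self]
    have h6 : (q : ℤ) ^ n - 1 = ((q : ℤ) ^ d - 1) * ∑ i ∈ Finset.range r, ((q : ℤ) ^ d) ^ i := by
      rw [mul_geom_sum, ← pow_mul, hnd]
    have h7 : (q : ℤ) ^ d - 1 ≠ 0 := by
      have : (1 : ℤ) < (q : ℤ) ^ d := one_lt_pow₀ (by exact_mod_cast (by omega : 1 < q)) hd0.ne'
      omega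
    rw [h6, mul_dvd_mul_iff_left h7, ← hΦz] at h2
    have h8 : (r : ℤ) ^ 2 ∣ ∑ i ∈ Finset.range r, ((q : ℤ) ^ d) ^ i :=
      (by exact_mod_cast hsq : (r : ℤ) ^ 2 ∣ (Φ : ℤ)).trans h2
    rcases hr.eq_two_or_odd' with h2' | hodd
    · subst h2'
      have hm1 : m = 1 := Nat.dvd_one.1 (by simpa using hmr)
      rcases k with _ | k
      · rw [hm1] at hnm; norm_num at hnm; omega
      · have hdd : (q : ℤ) ^ d = ((q : ℤ) ^ (2 ^ k)) ^ 2 := by
          rw [← pow_mul, hd, hm1, mul_one, pow_succ]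
        simp only [Finset.sum_range_succ, Finset.range_zero, Finset.sum_empty, pow_zero, pow_one] at h8
        rw [hdd] at h8
        generalize (q : ℤ) ^ (2 ^ k) = y at h8
        obtain ⟨c, hc⟩ := h8
        push_cast at hc
        rcases Int.even_or_odd' y with ⟨w, rfl | rfl⟩
        · have : 4 * (c - w ^ 2) = 1 := by linarith [hc]
          omega
        · have : 4 * (c - w ^ 2 - w) = 2 := by linarith [hc]
          omega
    · obtain ⟨b, hb⟩ := h3
      have h4 : (q : ℤ) ^ d = 1 + r * b := by linarith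
      have h5 := odd_sq_dvd_geom_sum₂_sub (R := ℤ) (a := 1) (b := b) (p := r) hodd
      simp only [one_pow, mul_one, ← h4] at h5
      have h9 : (r : ℤ) ^ 2 ∣ r := by
        have := dvd_sub h8 h5
        simpa using this
      have h10 : r ^ 2 ∣ r := by exact_mod_cast h9
      have := Nat.le_of_dvd hr.pos h10
      nlinarith
  have hΦr : Φ = r := by
    have h1 := Nat.eq_prime_pow_of_unique_prime_dvd (n := Φ) (p := r) (by omega) huniq
    set j := Φ.primeFactorsList.length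
    rcases j with _ | _ | j
    · rw [pow_zero] at h1; omega
    · simpa using h1
    · exact absurd (h1 ▸ pow_dvd_pow r (by omega)) hsq
  have hrn : r ∣ n := by rw [hnm, pow_succ', mul_assoc]; exact dvd_mul_right _ _
  have h1 : r - 1 ≤ Nat.totient n := by
    rw [← Nat.totient_prime hr]
    exact Nat.le_of_dvd (Nat.totient_pos.2 (by omega)) (Nat.totient_dvd_of_dvd hrn)
  have h2 : 2 ^ (r - 1) ≤ (q - 1) ^ Nat.totient n :=
    (Nat.pow_le_pow_right (by norm_num) h1).trans (Nat.pow_le_pow_left (by omega) _)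
  have h3 := Nat.lt_two_pow_self (n := r - 1)
  omega

theorem zsig {q n : ℕ} (hq : 2 ≤ q) (hn : 3 ≤ n) (h6 : ¬ (q = 2 ∧ n = 6)) :
    ∃ r : ℕ, r.Prime ∧ IsPrimitiveRoot (q : ZMod r) n := by
  rcases hq.eq_or_lt with rfl | h
  · obtain ⟨r, hr, h⟩ := H4.Bang.bang (n := n) (by omega) (fun h => h6 ⟨rfl, h⟩)
    exact ⟨r, hr, by simpa using h⟩
  · exact zsig_three h hn

/-- Divisibility form. -/
theorem zsig' {q n : ℕ} (hq : 2 ≤ q) (hn : 3 ≤ n) (h6 : ¬ (q = 2 ∧ n = 6)) :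
    ∃ r : ℕ, r.Prime ∧ (∀ i, r ∣ q ^ i - 1 ↔ n ∣ i) ∧ n ∣ r - 1 ∧ ¬ r ∣ q := by
  obtain ⟨r, hr, h⟩ := zsig hq hn h6
  haveI := Fact.mk hr
  have h0 : (q : ZMod r) ≠ 0 := h.ne_zero (by omega)
  refine ⟨r, hr, fun i => ?_, ?_, fun hd => h0 ((ZMod.natCast_eq_zero_iff _ _).2 hd)⟩
  · rw [← h.pow_eq_one_iff_dvd, ← ZMod.natCast_eq_zero_iff,
      Nat.cast_sub (Nat.one_le_pow _ _ (by omega)), sub_eq_zero]
    simp
  · rw [h.eq_orderOf]
    exact ZMod.orderOf_dvd_card_sub_one h0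

end Cfsg.Agent.SG
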